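import Mathlib

/-! The projective line: three distinct points are the image of the standard frame. -/

set_option autoImplicit false

namespace Cfsg.Agent.H10

open Matrix Projectivization
open scoped LinearAlgebra.Projectivization

variable {F : Type*} [Field F]

theorem mk_eq_mk_iff_det (u v : Fin 2 → F) (hu : u ≠ 0) (hv : v ≠ 0) :
    Projectivization.mk F u hu = Projectivization.mk F v hv ↔ u 0 * v 1 - u 1 * v 0 = 0 := by
  rw [mk_eq_mk_iff']
  constructor
  · rintro ⟨a, rfl⟩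
    simp only [Pi.smul_apply, smul_eq_mul]; ring
  · intro h
    by_cases h0 : v 0 = 0
    · have h1 : v 1 ≠ 0 := by
        intro h1; apply hv; ext i; fin_cases i <;> assumption
      refine ⟨u 1 / v 1, ?_⟩
      ext i; fin_cases i
      · simp only [Fin.zero_eta, Pi.smul_apply, smul_eq_mul]
        rw [h0] at h ⊢
        have : u 0 * v 1 = 0 := by linear_combination h
        rw [(mul_eq_zero.1 this).resolve_right h1, mul_zero]
      · simp only [Fin.mk_one, Pi.smul_apply, smul_eq_mul]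
        field_simp
    · refine ⟨u 0 / v 0, ?_⟩
      ext i; fin_cases i
      · simp only [Fin.zero_eta, Pi.smul_apply, smul_eq_mul]
        field_simp
      · simp only [Fin.mk_one, Pi.smul_apply, smul_eq_mul]
        field_simp
        linear_combination h

theorem e0_ne_zero : (![1, 0] : Fin 2 → F) ≠ 0 := fun h => by simpa using congrFun h 0
theorem e1_ne_zero : (![0, 1] : Fin 2 → F) ≠ 0 := fun h => by simpa using congrFun h 1
theorem e01_ne_zero (c : F) : (![1, c] : Fin 2 → F) ≠ 0 := fun h => by simpa using congrFun h 0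

/-- the point `[1:0]` -/
def pt0 (F : Type*) [Field F] : ℙ F (Fin 2 → F) := Projectivization.mk F ![1, 0] e0_ne_zero
/-- the point `[0:1]` -/
def pt1 (F : Type*) [Field F] : ℙ F (Fin 2 → F) := Projectivization.mk F ![0, 1] e1_ne_zero
/-- the point `[1:c]` -/
def pt2 (c : F) : ℙ F (Fin 2 → F) := Projectivization.mk F ![1, c] (e01_ne_zero c)

theorem GL_smul_mk (g : GL (Fin 2) F) (v : Fin 2 → F) (hv : v ≠ 0) :
    ∃ h, g • Projectivization.mk F v hv =
      Projectivization.mk F ((g : Matrix (Fin 2) (Fin 2) F) *ᵥ v) h :=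
  ⟨(smul_ne_zero_iff_ne g).mpr hv, rfl⟩

/-- Three distinct points of the projective line are the image of the standard frame. -/
theorem exists_GL_frame (a b c : ℙ F (Fin 2 → F)) (hab : a ≠ b) (hac : a ≠ c) (hbc : b ≠ c) :
    ∃ g : GL (Fin 2) F, g • pt0 F = a ∧ g • pt1 F = b ∧ g • pt2 (1 : F) = c := by
  induction a using Projectivization.ind with | _ u hu =>
  induction b using Projectivization.ind with | _ v hv =>
  induction c using Projectivization.ind with | _ w hw =>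
  rw [Ne, mk_eq_mk_iff_det] at hab hac hbc
  set α := w 0 * v 1 - w 1 * v 0 with hα
  set β := u 0 * w 1 - u 1 * w 0 with hβ
  have hα0 : α ≠ 0 := fun h => hbc (by linear_combination -h - hα)
  have hβ0 : β ≠ 0 := hac
  have hdet : (!![α * u 0, β * v 0; α * u 1, β * v 1] : Matrix (Fin 2) (Fin 2) F).det ≠ 0 := by
    rw [det_fin_two_of]
    have : α * u 0 * (β * v 1) - β * v 0 * (α * u 1) = α * β * (u 0 * v 1 - u 1 * v 0) := by ring
    rw [this]
    exact mul_ne_zero (mul_ne_zero hα0 hβ0) hab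
  refine ⟨GeneralLinearGroup.mkOfDetNeZero _ hdet, ?_, ?_, ?_⟩
  · obtain ⟨h, e⟩ := GL_smul_mk (GeneralLinearGroup.mkOfDetNeZero _ hdet) ![1, 0] e0_ne_zero
    rw [pt0, e, mk_eq_mk_iff_det]
    simp [mulVec, dotProduct, Fin.sum_univ_two]
    ring
  · obtain ⟨h, e⟩ := GL_smul_mk (GeneralLinearGroup.mkOfDetNeZero _ hdet) ![0, 1] e1_ne_zero
    rw [pt1, e, mk_eq_mk_iff_det]
    simp [mulVec, dotProduct, Fin.sum_univ_two]
    ring
  · obtain ⟨h, e⟩ := GL_smul_mk (GeneralLinearGroup.mkOfDetNeZero _ hdet) ![1, 1] (e01_ne_zero 1)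
    rw [pt2, e, mk_eq_mk_iff_det]
    simp [mulVec, dotProduct, Fin.sum_univ_two]
    rw [hα, hβ]
    ring

theorem pt0_ne_pt1 : pt0 F ≠ pt1 F := by
  rw [pt0, pt1, Ne, mk_eq_mk_iff_det]; simp

theorem pt0_ne_pt2 {c : F} (hc : c ≠ 0) : pt0 F ≠ pt2 c := by
  rw [pt0, pt2, Ne, mk_eq_mk_iff_det]; simpa using hc

theorem pt1_ne_pt2 (c : F) : pt1 F ≠ pt2 c := by
  rw [pt1, pt2, Ne, mk_eq_mk_iff_det]; simp

/-- A matrix fixing `[1:0]`, `[0:1]` and sending `[1:1]` to `[1:c]` is `diag(a, c a)`. -/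
theorem GL_fix_frame (g : GL (Fin 2) F) (c : F) (h0 : g • pt0 F = pt0 F) (h1 : g • pt1 F = pt1 F)
    (h2 : g • pt2 (1 : F) = pt2 c) :
    (g : Matrix (Fin 2) (Fin 2) F) 0 1 = 0 ∧ (g : Matrix (Fin 2) (Fin 2) F) 1 0 = 0 ∧
      (g : Matrix (Fin 2) (Fin 2) F) 1 1 = c * (g : Matrix (Fin 2) (Fin 2) F) 0 0 := by
  obtain ⟨h, e⟩ := GL_smul_mk g ![1, 0] e0_ne_zero
  rw [pt0, e, mk_eq_mk_iff_det] at h0
  obtain ⟨h', e'⟩ := GL_smul_mk g ![0, 1] e1_ne_zero
  rw [pt1, e', mk_eq_mk_iff_det] at h1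
  obtain ⟨h'', e''⟩ := GL_smul_mk g ![1, 1] (e01_ne_zero 1)
  rw [pt2, pt2, e'', mk_eq_mk_iff_det] at h2
  simp [mulVec, dotProduct, Fin.sum_univ_two] at h0 h1 h2
  refine ⟨h1, h0, ?_⟩
  rw [h0, h1] at h2
  linear_combination -h2

/-- `3`-transitivity from the existence of frames. -/
theorem three_pretransitive_of_frame {G α : Type*} [Group G] [MulAction G α] (p0 p1 p2 : α)
    (h : ∀ a b c : α, a ≠ b → a ≠ c → b ≠ c → ∃ g : G, g • p0 = a ∧ g • p1 = b ∧ g • p2 = c) :
    MulAction.IsMultiplyPretransitive G α 3 := by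
  rw [MulAction.isMultiplyPretransitive_iff]
  intro x y
  obtain ⟨g, g0, g1, g2⟩ := h (x 0) (x 1) (x 2) (x.injective.ne (by decide))
    (x.injective.ne (by decide)) (x.injective.ne (by decide))
  obtain ⟨k, k0, k1, k2⟩ := h (y 0) (y 1) (y 2) (y.injective.ne (by decide))
    (y.injective.ne (by decide)) (y.injective.ne (by decide))
  refine ⟨k * g⁻¹, ?_⟩
  ext i
  fin_cases i
  · simp [← g0, ← k0, mul_smul]
  · simp [← g1, ← k1, mul_smul]
  · simp [← g2, ← k2, mul_smul]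

theorem exists_smul_three {G α : Type*} [Group G] [MulAction G α]
    (h : MulAction.IsMultiplyPretransitive G α 3) (a b c a' b' c' : α)
    (hab : a ≠ b) (hac : a ≠ c) (hbc : b ≠ c) (hab' : a' ≠ b') (hac' : a' ≠ c') (hbc' : b' ≠ c') :
    ∃ g : G, g • a = a' ∧ g • b = b' ∧ g • c = c' := by
  rw [MulAction.isMultiplyPretransitive_iff] at h
  have inj : ∀ a b c : α, a ≠ b → a ≠ c → b ≠ c → Function.Injective ![a, b, c] := by
    intro a b c hab hac hbc i j hij
    fin_cases i <;> fin_cases j <;> simp_all [eq_comm]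
  obtain ⟨g, hg⟩ := h ⟨_, inj a b c hab hac hbc⟩ ⟨_, inj a' b' c' hab' hac' hbc'⟩
  exact ⟨g, congrArg (fun e : Fin 3 ↪ α => e 0) hg, congrArg (fun e : Fin 3 ↪ α => e 1) hg,
    congrArg (fun e : Fin 3 ↪ α => e 2) hg⟩

end Cfsg.Agent.H10
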