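import Cfsg.Agent.H10.UTrans
import Cfsg.Agent.H9.SmallIso

/-! Non-maximal geometric subgroups of `SU₄(2)` and `SU₄(3)`. -/

set_option autoImplicit false
set_option linter.unusedSectionVars false
set_option linter.style.haveILetI false

namespace Cfsg.Agent.H10

open Cfsg Cfsg.Geo Cfsg.Agent.H98 Cfsg.Agent.H99 Matrix
open Cfsg.Agent.H9 (F9 F4)

variable {F : Type*} [Field F] [Fintype F] {q : ℕ} [hF : Fact (Fintype.card F = q ^ 2)] {n : ℕ}
variable {ι κ : Type} [Fintype ι] [DecidableEq ι] [Fintype κ] [DecidableEq κ]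

local notation "σ" => cj F q
local notation "𝐡" => hermForm n F q

instance factCardF9 : Fact (Fintype.card F9 = 3 ^ 2) := ⟨H9.card_F9⟩

instance factCardF4 : Fact (Fintype.card F4 = 2 ^ 2) := ⟨H9.card_F4⟩

/-- conjugation in the field with nine elements -/
def c9 (x : F9) : F9 := ⟨x.re, -x.im⟩

theorem cj9 (x : F9) : cj F9 3 x = c9 x := by
  rw [cj_apply]; revert x; decide +kernel

theorem cj9' : (cj F9 3 : F9 → F9) = c9 := funext cj9

/-- the sixty points of Klein's configuration over the field with nine elements -/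
def k60 (v : Fin 4 → F9) : Prop :=
  (∀ i j, v i ≠ 0 → v j ≠ 0 → v i * c9 (v i) = v j * c9 (v j)) ∧
    (∀ i, v i = 0 → ∃ j, j ≠ i ∧ v j = 0) ∧ ((∀ i, v i ≠ 0) → (∏ i, v i) ^ 2 = 1)

instance decK60 (v : Fin 4 → F9) : Decidable (k60 v) := by unfold k60; infer_instance

/-- a primitive eighth root of unity -/
def z9 : F9 := ⟨1, 1⟩

/-- a non-monomial element of `SU₄(3)` -/
def hd9 : Matrix (Fin 4) (Fin 4) F9 :=
  !![z9, z9, 0, 0; z9, -z9, 0, 0; 0, 0, z9, z9; 0, 0, -z9, z9]

theorem k60_hd9 : ∀ a b c d : F9, k60 ![a, b, c, d] → k60 ![z9 * (a + b), z9 * (a - b),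
    z9 * (c + d), z9 * (d - c)] := by
  decide +kernel

theorem hd9_mulVec : ∀ a b c d : F9, hd9 *ᵥ ![a, b, c, d] = ![z9 * (a + b), z9 * (a - b),
    z9 * (c + d), z9 * (d - c)] := by
  intro a b c d
  ext1 i
  fin_cases i <;> simp [hd9, Matrix.mulVec, dotProduct, Fin.sum_univ_four] <;> ring

theorem hd9_isom : hd9ᵀ * hd9.map (cj F9 3) = 1 := by
  rw [cj9']; decide +kernel

theorem hd9_det : hd9.det = 1 := by
  simp only [hd9, Matrix.det_succ_row_zero, Fin.sum_univ_succ]
  decide +kernel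

theorem frame_four_three_model {H : Subgroup (GL (Fin 4) F9)} (hH : IsMaximalIn (SUG 4 F9 3) H)
    (hm : ∀ g ∈ H, ∃ π, BlockMono id π (g : Matrix (Fin 4) (Fin 4) F9)) : False := by
  refine not_maximal_of' hH (M := setStab {v | k60 v}) (fun g hg => ?_)
    (not_le_setStab (u := ![1, 0, 0, 0]) (v := ![1, 1, z9, 0]) (w := ![0, 1, 0, 0])
      (by decide +kernel) (by decide +kernel) (by decide +kernel) (by decide +kernel)
      (by decide +kernel) (by decide +kernel))
    (isoGL_mem hd9 hd9_isom hd9_det) (mem_setStab_of_finite fun v hv => ?_) fun hg => ?_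
  · obtain ⟨π, hπ⟩ := hm g hg
    have hne := hπ.mono_ne_zero g.det_ne_zero
    have hn := mono_norm (q := 3) (hH.1.le hg).1 hπ
    refine mem_setStab_of_finite ?_
    rintro v ⟨h1, h2, h3⟩
    refine ⟨fun i j hi hj => ?_, fun i hi => ?_, fun h0 => ?_⟩
    · obtain ⟨i, rfl⟩ := π.surjective i
      obtain ⟨j, rfl⟩ := π.surjective j
      rw [hπ.mono_mulVec] at hi hj
      have := h1 i j (right_ne_zero_of_mul hi) (right_ne_zero_of_mul hj)
      simp only [hπ.mono_mulVec, ← cj9, map_mul] at this ⊢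
      linear_combination this + (v i * cj F9 3 (v i)) * hn i - (v j * cj F9 3 (v j)) * hn j
    · obtain ⟨l, rfl⟩ := π.surjective i
      rw [hπ.mono_mulVec] at hi
      obtain ⟨j, hj, hj0⟩ := h2 l ((mul_eq_zero.1 hi).resolve_left (hne l))
      exact ⟨π j, fun hc => hj (π.injective hc), by rw [hπ.mono_mulVec, hj0, mul_zero]⟩
    · rw [mono_prod_sq (hH.1.le hg).2 hπ]
      exact h3 fun i hi => h0 (π i) (by rw [hπ.mono_mulVec, hi, mul_zero])
  · have h1 : v = ![v 0, v 1, v 2, v 3] := by ext1 i; fin_cases i <;> rfl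
    rw [h1] at hv ⊢
    change k60 (hd9 *ᵥ _)
    rw [hd9_mulVec]
    exact k60_hd9 _ _ _ _ hv
  · obtain ⟨π, hπ⟩ := hm _ hg
    by_cases h : 0 = π 0
    · exact absurd (hπ 1 0 (by rw [id, id, ← h]; decide)) (by decide +kernel)
    · exact absurd (hπ 0 0 h) (by decide +kernel)

theorem frame_four_three (hq : q = 3) {H : Subgroup (GL (Fin 4) F)}
    (hH : IsMaximalIn (SUG 4 F q) H) {D : Fin 4 → Submodule F (Fin 4 → F)}
    (hD : IsNondegenerateMDecomposition (hermForm 4 F q) 1 D)
    (h : H ≤ decompositionStabilizer D) : False := by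
  subst hq
  obtain ⟨H', h1, h2⟩ := frame_transport F9 hH hD h
  exact frame_four_three_model h1 h2

/-- the hyperbolic Hermitian form -/
def hypHerm (s : F ≃+* F) (k : ℕ) (x y : Fin 2 × Fin k → F) : F :=
  ∑ i, (x (0, i) * s (y (1, i)) + x (1, i) * s (y (0, i)))

/-- a hyperbolic frame adapted to a pair of complementary totally isotropic subspaces -/
theorem exists_adapted_hyp {k : ℕ} {D : Fin 2 → Submodule F (Fin n → F)}
    (hD : IsMDecomposition k D) (hs : ∀ i, IsTotallySingularFor 𝐡 (D i))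
    (e : Fin n ≃ Fin 2 × Fin k) : ∃ P : GL (Fin n) F, Adapted D e P Prod.fst ∧
      ∀ x y, 𝐡 (frmV e P x) (frmV e P y) = hypHerm (sig F q) k x y := by
  let b0 := Module.finBasisOfFinrankEq F (D 0) (hD.finrank_eq 0)
  let L : D 1 →ₗ[F] (Fin k → F) :=
    { toFun := fun y i => 𝐡 y (b0 i)
      map_add' := fun x y => by ext i; exact herm_add_left _ _ _
      map_smul' := fun c x => by ext i; exact herm_smul_left _ _ _ }
  have hL : Function.Injective L := by
    rw [← LinearMap.ker_eq_bot, LinearMap.ker_eq_bot']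
    intro y hy
    refine Subtype.ext (eq_zero_of_herm_left (q := q) fun z => ?_)
    have hz : z ∈ D 0 ⊔ D 1 := by
      have : iSup D ≤ D 0 ⊔ D 1 := iSup_le fun i => by
        fin_cases i
        exacts [le_sup_left, le_sup_right]
      exact this (hD.iSup_eq_top ▸ trivial)
    obtain ⟨a, ha, b, hb, rfl⟩ := Submodule.mem_sup.1 hz
    rw [herm_add_right, hs 1 y y.2 b hb, add_zero,
      show a = ∑ i, b0.repr ⟨a, ha⟩ i • (b0 i : Fin n → F) by
        have := congrArg Subtype.val (b0.sum_repr ⟨a, ha⟩).symm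
        rwa [Submodule.coe_sum] at this, isSesq_herm.sum_right]
    refine Finset.sum_eq_zero fun i _ => ?_
    rw [herm_smul_right, show 𝐡 y (b0 i) = 0 from congrFun hy i, mul_zero]
  let L' := L.linearEquivOfInjective hL (by rw [hD.finrank_eq]; simp)
  let b1 := (Pi.basisFun F (Fin k)).map L'.symm
  have hb : ∀ j i, 𝐡 (b1 j) (b0 i) = if j = i then 1 else 0 := fun j i => by
    have : L (b1 j) = Pi.single j 1 := by
      change L' (L'.symm _) = _
      simp
    have h2 := congrFun this i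
    rw [Pi.single_apply] at h2
    simp only [@eq_comm _ i] at h2
    exact h2
  obtain ⟨P, h1, h2⟩ := exists_adapted_of_bases hD
    (fun i => Fin.cases b0 (fun j => Fin.cases b1 (fun l => l.elim0) j) i) e
  have e0 : ∀ a, frmV e P (Pi.single (0, a) 1) = b0 a := h2 0
  have e1 : ∀ a, frmV e P (Pi.single (1, a) 1) = b1 a := h2 1
  have hb' : ∀ i j, 𝐡 (b0 i) (b1 j) = if i = j then 1 else 0 := fun i j => by
    rw [← cj_herm, hb]; simp [apply_ite, eq_comm]
  refine ⟨P, h1, fun x y => ?_⟩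
  rw [form_frmV_of_single isSesq_herm]
  simp only [Fintype.sum_prod_type, Fin.sum_univ_two, e0, e1, hb, hb',
    hs 0 _ (b0 _).2 _ (b0 _).2, hs 1 _ (b1 _).2 _ (b1 _).2, hypHerm]
  simp [Finset.sum_add_distrib]

theorem utG_not_mem_sim {B : (Fin n → F) → (Fin n → F) → F} (hB : IsBilinearForm B)
    {v : Fin n → F} (hv : 𝐡 v v = 0) {c : F} (hc : σ c = -c) (hc0 : c ≠ 0) {x y : Fin n → F}
    (hx : 𝐡 x v ≠ 0) (hy : 𝐡 y v = 0) (h0 : B x y = 0) (h1 : B v y ≠ 0) :
    utG hv hc ∉ similarityGroup B := by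
  rintro ⟨d, hd⟩
  have := hd x y
  rw [utG_mulVec, utG_mulVec, hy, mul_zero, zero_smul, add_zero, hB.add_left, hB.smul_left, h0,
    zero_add, mul_zero] at this
  exact mul_ne_zero (mul_ne_zero hc0 hx) h1 this

theorem utG_mem_sim {B : (Fin n → F) → (Fin n → F) → F} (hB : IsSymplecticForm B)
    {v : Fin n → F} (hv : 𝐡 v v = 0) {c : F} (hc : σ c = -c) {a : F}
    (h : ∀ x, B x v = a * 𝐡 x v) : utG hv hc ∈ similarityGroup B := by
  refine ⟨1, fun x y => ?_⟩
  rw [utG_mulVec, utG_mulVec, hB.bilinear.add_left, hB.bilinear.add_right, hB.bilinear.add_right,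
    hB.bilinear.smul_left, hB.bilinear.smul_right, hB.bilinear.smul_left, hB.bilinear.smul_right,
    hB.alternating, hB.skew v y, h, h]
  simp only [Units.val_one]
  ring

theorem pair_four (hq : q ≤ 3) {H : Subgroup (GL (Fin 4) F)} (hH : IsMaximalIn (SUG 4 F q) H)
    {D : Fin 2 → Submodule F (Fin 4 → F)} (hD : IsMDecomposition 2 D)
    (hs : ∀ i, IsTotallySingularFor (hermForm 4 F q) (D i))
    (h : H ≤ decompositionStabilizer D) : False := by
  let e : Fin 4 ≃ Fin 2 × Fin 2 := (finProdFinEquiv (m := 2) (n := 2)).symm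
  obtain ⟨P, h1, h2⟩ := exists_adapted_hyp hD hs e
  obtain ⟨c, hc0, hc⟩ := exists_skew F q
  obtain ⟨a, ha0, ha⟩ := exists_norm_neg_one (F := F) (q := q)
  have hB := symp_pushF e P (symp_sumAlt (τ := Fin 2) (F := F))
  have hBf : ∀ x y, pushF e P (sumAlt (Fin 2) F) (frmV e P x) (frmV e P y) = sumAlt (Fin 2) F x y :=
    fun x y => by simp [pushF]
  have hv : hermForm 4 F q (frmV e P (Pi.single (0, 0) 1)) (frmV e P (Pi.single (0, 0) 1)) = 0 := by
    rw [h2]; simp [hypHerm, Pi.single_apply]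
  let w : Fin 2 × Fin 2 → F := Pi.single (0, 0) 1 + Pi.single (1, 1) a
  have hw : hermForm 4 F q (frmV e P w) (frmV e P w) = 0 := by
    rw [h2]; simp [hypHerm, w, Pi.single_apply]
  refine not_maximal_of hH h (M := similarityGroup (pushF e P (sumAlt (Fin 2) F))) ?_
    (fun hS => utG_not_mem_sim hB.bilinear hv hc hc0 (x := frmV e P (Pi.single (1, 0) 1))
      (y := frmV e P (Pi.single (0, 1) 1)) ?_ ?_ ?_ ?_ (hS (utG_mem hv hc)))
    (utG_mem hw hc) (utG_mem_sim hB hw hc (a := a) fun x => ?_) fun hg => ?_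
  · rintro g ⟨hg, hu, hd1⟩
    obtain ⟨G, rfl⟩ := (frmG e P).surjective g
    obtain ⟨s, hs⟩ := h1.blockMono hg
    rw [mem_sim_pushF]
    rw [MulEquiv.symm_apply_apply] at hs ⊢
    have hd := hs.block_det
    rw [mem_sl.1 ((frmG_mem_sl e P).1 hd1), Fintype.card_fin, sign_cast_sq, Fin.prod_univ_two,
      one_mul] at hd
    have hG : G ∈ isoG (hypHerm (sig F q) 2) :=
      (frmG_mem_isoG one_ne_zero fun x y => by rw [one_mul, h2]).1 hu
    have h3 : (blocks s G 0)ᵀ * (blocks s (G : Matrix (Fin 2 × Fin 2) (Fin 2 × Fin 2) F) 1).map σ =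
        1 := by
      ext i j
      have h4 := hG (Pi.single (0, i) 1) (Pi.single (1, j) 1)
      change hypHerm _ _ ((G : Matrix (Fin 2 × Fin 2) (Fin 2 × Fin 2) F) *ᵥ _)
        ((G : Matrix (Fin 2 × Fin 2) (Fin 2 × Fin 2) F) *ᵥ _) = _ at h4
      simp only [mulVec_single_one, hypHerm, Matrix.col_apply, sig_apply] at h4
      have h5 : s 0 ≠ s 1 := fun h => absurd (s.injective h) (by decide)
      have h6 : (s 0 = 0 ∧ s 1 = 1) ∨ (s 0 = 1 ∧ s 1 = 0) := by
        revert h5; generalize s 0 = x; generalize s 1 = y; revert x y; decide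
      simp only [Matrix.mul_apply, transpose_apply, map_apply, blocks, of_apply, one_apply]
      rcases h6 with ⟨h7, h8⟩ | ⟨h7, h8⟩ <;> rw [h7, h8]
      · simp only [fun l => hs (1, l) (0, i) (by rw [h7]; exact one_ne_zero), zero_mul,
          add_zero] at h4
        simpa [Pi.single_apply, apply_ite, eq_comm] using h4
      · simp only [fun l => hs (0, l) (0, i) (by rw [h7]; exact zero_ne_one), zero_mul,
          zero_add] at h4
        simpa [Pi.single_apply, apply_ite, eq_comm] using h4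
    have h4 := congrArg det h3
    rw [det_mul, det_transpose, det_one, ← RingHom.mapMatrix_apply, ← RingHom.map_det] at h4
    have h0 := hs.block_det_ne_zero G.det_ne_zero 0
    have h5 := hs.block_det_ne_zero G.det_ne_zero 1
    have h6 := mul_left_cancel₀ h0 (h4.trans hd)
    refine ⟨Units.mk0 _ h0, fun u v => hs.sumAlt_eq (fun l => ?_) u v⟩
    fin_cases l
    · rfl
    · apply mul_right_cancel₀ h5
      change (blocks s _ 1).det * _ = (blocks s _ 0).det * _
      rw [← hd]
      rw [cj_apply] at h6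
      have h7 := two_le_q F q
      interval_cases q
      · rw [eq_one_of_fixed (q := 2) rfl h5 h6, one_mul]
      · apply mul_right_cancel₀ h5
        rw [one_mul, ← sq, ← pow_succ]
        exact h6
  · rw [h2]; simp [hypHerm, Pi.single_apply]
  · rw [h2]; simp [hypHerm, Pi.single_apply]
  · rw [hBf]; simp [sumAlt, Pi.single_apply]
  · rw [hBf]; simp [sumAlt, Pi.single_apply]
  · obtain ⟨x, rfl⟩ := (frmV e P).surjective x
    rw [hBf, h2]
    simp [sumAlt, hypHerm, w, Pi.single_apply, sig_apply]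
    linear_combination (-x (0, 1)) * ha
  · obtain ⟨π, hπ⟩ := mem_of_decStab hg
    have h3 := hπ 1 (frmV e P (Pi.single (1, 0) 1)) (by
      rw [h1]; intro k hk
      rw [LinearEquiv.symm_apply_apply, Pi.single_eq_of_ne (by rintro rfl; exact hk rfl)])
    rw [utG_mulVec, h2, ← map_smul, ← map_add, h1] at h3
    simp only [LinearEquiv.symm_apply_apply] at h3
    by_cases h4 : π 1 = 1
    · have := h3 (0, 0) (by rw [h4]; decide)
      simp [hypHerm, w, Pi.single_apply, hc0] at this
    · have := h3 (1, 0) (Ne.symm h4)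
      simp [hypHerm, w, Pi.single_apply] at this

end Cfsg.Agent.H10
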