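import Cfsg.Agent.H10.USinger
import Cfsg.Agent.H10.UFour

/-! Coded vectors and matrices over small explicit fields, and certificates about them. -/

set_option autoImplicit false
set_option linter.unusedSectionVars false
set_option linter.style.haveILetI false

namespace Cfsg.Agent.H10

open Cfsg Cfsg.Geo Cfsg.Agent.H98 Cfsg.Agent.H99 Matrix
open Cfsg.Agent.H9 (F9 F4)

variable {F : Type*} [Field F] [Fintype F] {q : ℕ} [hF : Fact (Fintype.card F = q ^ 2)] {n : ℕ}

local notation "σ" => cj F q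
local notation "𝐡" => hermForm n F q

/-- the element of a quadratic algebra over `ZMod p` coded by a number -/
def fc (p : ℕ) (a b : ZMod p) (k : ℕ) : QuadraticAlgebra (ZMod p) a b := ⟨k, (k / p : ℕ)⟩

/-- the vector coded by a number -/
def vc {K : Type*} (f : ℕ → K) (Q n c : ℕ) : Fin n → K := fun i => f (c / Q ^ (i : ℕ))

/-- the matrix coded by a number -/
def mc {K : Type*} (f : ℕ → K) (Q n c : ℕ) : Matrix (Fin n) (Fin n) K :=
  Matrix.of fun i j => f (c / Q ^ (n * (i : ℕ) + j))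

theorem pow_eq_of_chain {M : Type*} [Monoid M] {x : M} (L : ℕ → M) {N : ℕ} (h0 : L 0 = 1)
    (hs : ∀ i < N, L i * x = L (i + 1)) : ∀ i ≤ N, x ^ i = L i := by
  intro i hi
  induction i with
  | zero => rw [pow_zero, h0]
  | succ i ih => rw [pow_succ, ih (by omega), hs i (by omega)]

theorem isoGL_mem_of_pow (M : Matrix (Fin n) (Fin n) F) (h : Mᵀ * M.map σ = 1) {k : ℕ}
    (hk : M ^ k = 1) (hc : Nat.gcd k (q + 1) = 1) : isoGL M h ∈ SUG n F q := by
  refine isoGL_mem M h ?_
  have h1 : M.det ^ (q + 1) = 1 := by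
    rw [pow_succ', ← cj_apply (F := F)]; exact ((isIsom_iff M).2 h).det_mul_cj
  have h2 : M.det ^ k = 1 := by rw [← det_pow, hk, det_one]
  simpa [hc] using pow_gcd_eq_one.2 ⟨h2, h1⟩

omit hF in
theorem mem_setStab_range {N : ℕ} (X : Fin N → Fin n → F) {g : GL (Fin n) F} (π : Fin N → Fin N)
    (h : ∀ i, (g : Matrix (Fin n) (Fin n) F) *ᵥ X i = X (π i)) : g ∈ setStab (Set.range X) :=
  mem_setStab_of_finite (by rintro _ ⟨i, rfl⟩; exact ⟨π i, (h i).symm⟩)

/-- the non-zero multiples of the members of a family of vectors -/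
def coneOf {N : ℕ} (X : Fin N → Fin n → F) : Set (Fin n → F) :=
  {v | ∃ i, ∃ c : F, c ≠ 0 ∧ v = c • X i}

omit hF in
theorem mem_setStab_cone {N : ℕ} (X : Fin N → Fin n → F) {g : GL (Fin n) F} (π : Fin N → Fin N)
    (c : Fin N → F) (h : ∀ i, c i ≠ 0 ∧ (g : Matrix (Fin n) (Fin n) F) *ᵥ X i = c i • X (π i)) :
    g ∈ setStab (coneOf X) :=
  mem_setStab_of_finite (by
    rintro _ ⟨i, a, ha, rfl⟩
    exact ⟨π i, a * c i, mul_ne_zero ha (h i).1, by rw [mulVec_smul, (h i).2, smul_smul]⟩)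

/-- conjugation in the field with four elements -/
def c4 (x : F4) : F4 := ⟨x.re + x.im, x.im⟩

theorem cj4 (x : F4) : cj F4 2 x = c4 x := by
  rw [cj_apply]; revert x; decide +kernel

theorem cj4' : (cj F4 2 : F4 → F4) = c4 := funext cj4

theorem herm_eq_sum (u v : Fin n → F) : 𝐡 u v = ∑ i, u i * σ (v i) := rfl

end Cfsg.Agent.H10
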