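import Cfsg.Agent.H10.UThreeA

/-! Fast arithmetic on codes of elements of the field with twenty-five elements. -/

set_option autoImplicit false

namespace Cfsg.Agent.H10

open Matrix

/-- real part of a product of coded elements -/
def mRe (a x : ℕ) : ℕ := a % 5 * (x % 5) + 2 * (a / 5 % 5 * (x / 5 % 5))

/-- imaginary part of a product of coded elements -/
def mIm (a x : ℕ) : ℕ := a % 5 * (x / 5 % 5) + a / 5 % 5 * (x % 5)

/-- code of a product -/
def mN (a x : ℕ) : ℕ := mRe a x % 5 + 5 * (mIm a x % 5)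

/-- code of a scalar product -/
def dN (a b c x y z : ℕ) : ℕ :=
  (mRe a x + mRe b y + mRe c z) % 5 + 5 * ((mIm a x + mIm b y + mIm c z) % 5)

theorem e25_re (k : ℕ) : (e25 k).re = k := rfl

theorem e25_im (k : ℕ) : (e25 k).im = (k / 5 : ℕ) := rfl

theorem e25_mk (r s : ℕ) : e25 (r % 5 + 5 * (s % 5)) = ⟨r, s⟩ := by
  ext
  · rw [e25_re, ZMod.natCast_eq_natCast_iff']; omega
  · rw [e25_im, ZMod.natCast_eq_natCast_iff']; omega

theorem e25_mul (a x : ℕ) : e25 a * e25 x = ⟨(mRe a x : ℕ), (mIm a x : ℕ)⟩ := by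
  ext <;> simp [e25_re, e25_im, mRe, mIm, mul_assoc]

theorem e25_mN (a x : ℕ) : e25 (mN a x) = e25 a * e25 x := by
  rw [mN, e25_mk, e25_mul]

theorem e25_dN (a b c x y z : ℕ) :
    e25 (dN a b c x y z) = e25 a * e25 x + e25 b * e25 y + e25 c * e25 z := by
  rw [dN, e25_mk, e25_mul, e25_mul, e25_mul]
  ext <;> simp

theorem e25_eq_iff (a b : ℕ) : e25 a = e25 b ↔ a % 25 = b % 25 := by
  rw [QuadraticAlgebra.ext_iff, e25_re, e25_re, e25_im, e25_im, ZMod.natCast_eq_natCast_iff',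
    ZMod.natCast_eq_natCast_iff']
  omega

theorem e25_zero : e25 0 = 0 := rfl

theorem e25_one : e25 1 = 1 := rfl

theorem e25_surj : ∀ x : F25, ∃ k < 25, e25 k = x := by decide +kernel

/-- code of a matrix times a vector -/
def mvN (A v : ℕ) : ℕ :=
  dN A (A / 25) (A / 625) v (v / 25) (v / 625) +
    25 * dN (A / 15625) (A / 390625) (A / 9765625) v (v / 25) (v / 625) +
    625 * dN (A / 244140625) (A / 6103515625) (A / 152587890625) v (v / 25) (v / 625)

/-- code of a scalar multiple of a vector -/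
def svN (c v : ℕ) : ℕ := mN c v + 25 * mN c (v / 25) + 625 * mN c (v / 625)

/-- coded vectors of length three -/
def v325 (c : ℕ) : Fin 3 → F25 := vc e25 25 3 c

theorem v325_eq (c : ℕ) : v325 c = ![e25 c, e25 (c / 25), e25 (c / 625)] := by
  ext1 i; fin_cases i <;> simp [v325, vc]

theorem v325_mk {x y z : ℕ} (hx : x < 25) (hy : y < 25) :
    v325 (x + 25 * y + 625 * z) = ![e25 x, e25 y, e25 z] := by
  rw [v325_eq, (e25_eq_iff (x + 25 * y + 625 * z) x).2 (by omega),
    (e25_eq_iff ((x + 25 * y + 625 * z) / 25) y).2 (by omega),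
    (e25_eq_iff ((x + 25 * y + 625 * z) / 625) z).2 (by omega)]

theorem dN_lt (a b c x y z : ℕ) : dN a b c x y z < 25 := by unfold dN; omega

theorem mN_lt (a x : ℕ) : mN a x < 25 := by unfold mN; omega

theorem v325_mvN (A v : ℕ) : v325 (mvN A v) = m325 A *ᵥ v325 v := by
  rw [mvN, v325_mk (dN_lt ..) (dN_lt ..), v325_eq v]
  ext1 i
  fin_cases i <;> simp [e25_dN, m325, mc, Matrix.mulVec, dotProduct, Fin.sum_univ_three]

theorem v325_svN (c v : ℕ) : v325 (svN c v) = e25 c • v325 v := by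
  rw [svN, v325_mk (mN_lt ..) (mN_lt ..), v325_eq v]
  ext1 i
  fin_cases i <;> simp [e25_mN]

theorem v325_eq_iff (a b : ℕ) : v325 a = v325 b ↔ a % 15625 = b % 15625 := by
  rw [v325_eq, v325_eq]
  simp only [vecCons_inj, e25_eq_iff, and_true]
  omega

theorem v325_surj (v : Fin 3 → F25) : ∃ x < 25, ∃ y < 25, ∃ z < 25,
    v325 (x + 25 * y + 625 * z) = v := by
  obtain ⟨x, hx, h0⟩ := e25_surj (v 0)
  obtain ⟨y, hy, h1⟩ := e25_surj (v 1)
  obtain ⟨z, hz, h2⟩ := e25_surj (v 2)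
  refine ⟨x, hx, y, hy, z, hz, ?_⟩
  rw [v325_mk hx hy, h0, h1, h2]
  ext1 i; fin_cases i <;> rfl

theorem m325_mul_of {A B C : ℕ} (h : ∀ k < 3, mvN A (mvN B (25 ^ k)) = mvN C (25 ^ k)) :
    m325 A * m325 B = m325 C := by
  have h1 : ∀ k : Fin 3, v325 (25 ^ (k : ℕ)) = Pi.single k 1 := by decide +kernel
  ext1 i j
  have := congrArg v325 (h j j.2)
  rw [v325_mvN, v325_mvN, v325_mvN, mulVec_mulVec, h1, mulVec_single_one, mulVec_single_one] at this
  exact congrFun this i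

/-- a coded certificate that a matrix permutes a family of points -/
def certN (N : ℕ) (X : ℕ → ℕ) (A c : ℕ) : Prop :=
  ∀ i < N, c / 2048 ^ i % 2048 / 64 % 25 ≠ 0 ∧
    mvN A (X i) = svN (c / 2048 ^ i % 2048 / 64) (X (c / 2048 ^ i % 64 % N))

instance decCertN (N : ℕ) (X : ℕ → ℕ) (A c : ℕ) : Decidable (certN N X A c) := by
  unfold certN; infer_instance

theorem certN.cone {N : ℕ} [NeZero N] {X : ℕ → ℕ} {A c : ℕ} (h : certN N X A c) :
    ConeCert e25 (fun i : Fin N => v325 (X i)) (m325 A) c := fun i =>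
  ⟨fun h0 => (h i i.2).1 (by simpa using (e25_eq_iff _ 0).1 h0), by
    rw [← v325_mvN, (h i i.2).2, v325_svN]; rfl⟩

end Cfsg.Agent.H10
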