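import Cfsg.Agent.H10.UCode

/-! The Singer normaliser `11 : 5` of `SU₅(2)` lies in `L₂(11)`. -/

set_option autoImplicit false
set_option linter.unusedSectionVars false
set_option linter.style.haveILetI false

namespace Cfsg.Agent.H10

open Cfsg Cfsg.Geo Cfsg.Agent.H98 Cfsg.Agent.H99 Matrix
open Cfsg.Agent.H9 (F9 F4)

variable {F : Type*} [Field F] [Fintype F] {q : ℕ} [hF : Fact (Fintype.card F = q ^ 2)] {n : ℕ}

/-- coded matrices of degree five over the field with four elements -/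
def m54 (c : ℕ) : Matrix (Fin 5) (Fin 5) F4 := mc (fc 2 1 1) 4 5 c

/-- powers of an element of order eleven -/
def tp54 (i : ℕ) : Matrix (Fin 5) (Fin 5) F4 :=
  m54 ([281543712968705, 386767997570654, 343089157069980, 49553467893653, 842889080476016,
    202745636552801, 128597326938225, 1123286086521696, 33062399882709, 338709415024856,
    474174340074075, 281543712968705].getD i 0)

/-- powers of an element of order five -/
def up54 (i : ℕ) : Matrix (Fin 5) (Fin 5) F4 :=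
  m54 ([281543712968705, 1054473602213485, 353591492879633, 551233384575381, 575888210623141,
    281543712968705].getD i 0)

/-- an involution -/
def s54 : Matrix (Fin 5) (Fin 5) F4 := m54 536033215399605

/-- an orbit of `L₂(11)` on vectors -/
def x54 (i : Fin 55) : Fin 5 → F4 :=
  vc (fc 2 1 1) 4 5 ([848, 552, 631, 891, 953, 78, 316, 1005, 143, 347, 943, 547, 225, 471, 75,
    1018, 745, 637, 606, 485, 242, 644, 202, 445, 358, 730, 693, 878, 833, 361, 382, 824, 21, 812,
    415, 922, 530, 275, 177, 163, 934, 1015, 409, 452, 84, 502, 733, 619, 396, 991, 773, 662, 306,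
    679, 712].getD i 0)

/-- a permutation given by a list -/
def permOfList (N : ℕ) [NeZero N] (L : List ℕ) (i : Fin N) : Fin N := Fin.ofNat N (L.getD i 0)

theorem tp54_chain : tp54 0 = 1 ∧ tp54 11 = 1 ∧ ∀ i < 11, tp54 i * tp54 1 = tp54 (i + 1) := by
  decide +kernel

theorem up54_chain : up54 0 = 1 ∧ up54 5 = 1 ∧ ∀ i < 5, up54 i * up54 1 = up54 (i + 1) := by
  decide +kernel

theorem isom54 : (tp54 1)ᵀ * (tp54 1).map c4 = 1 ∧ (up54 1)ᵀ * (up54 1).map c4 = 1 ∧
    s54ᵀ * s54.map c4 = 1 := by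
  decide +kernel

theorem rel54 : s54 * s54 = 1 ∧ tp54 1 ≠ 1 ∧ up54 1 * tp54 1 = tp54 4 * up54 1 ∧
    up54 1 * tp54 1 ≠ tp54 1 * up54 1 ∧ ∀ i < 11, s54 * tp54 1 ≠ tp54 i * s54 := by
  decide +kernel

theorem t54_x : ∀ i, tp54 1 *ᵥ x54 i = x54 (permOfList 55 [4, 6, 9, 11, 8, 1, 14, 0, 17, 18, 15,
    21, 2, 25, 26, 3, 29, 23, 24, 5, 34, 35, 7, 37, 38, 39, 41, 10, 45, 22, 12, 13, 48, 50, 51, 44,
    16, 36, 47, 46, 19, 53, 20, 52, 49, 40, 42, 54, 30, 43, 31, 33, 27, 28, 32] i) := by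
  decide +kernel

theorem u54_x : ∀ i, up54 1 *ᵥ x54 i = x54 (permOfList 55 [35, 29, 39, 9, 52, 23, 4, 15, 3, 34,
    38, 47, 50, 14, 37, 48, 10, 44, 31, 0, 1, 30, 43, 27, 46, 28, 22, 2, 7, 21, 20, 19, 33, 6, 41,
    18, 49, 11, 51, 5, 16, 8, 45, 24, 54, 17, 26, 13, 25, 12, 53, 40, 32, 36, 42] i) := by
  decide +kernel

theorem s54_x : ∀ i, s54 *ᵥ x54 i = x54 (permOfList 55 [1, 0, 4, 6, 2, 9, 3, 11, 8, 5, 14, 7, 17,
    18, 10, 15, 21, 12, 13, 25, 26, 16, 29, 23, 24, 19, 20, 34, 35, 22, 37, 38, 39, 41, 27, 28, 45,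
    30, 31, 32, 48, 33, 50, 51, 44, 36, 47, 46, 40, 53, 42, 43, 52, 49, 54] i) := by
  decide +kernel

theorem card_SUG_five_two : Nat.card (SUG 5 F4 2) = 13685760 := by
  have := card_SUG_mul (F := F4) (q := 2) (n := 5) (by norm_num)
  rw [show (2 ^ (5 * (5 - 1) / 2) * ∏ i ∈ Finset.range 5,
    if Even i then 2 ^ (i + 1) + 1 else 2 ^ (i + 1) - 1) = 41057280 by decide +kernel] at this
  omega

theorem singer_five_two_model {H T : Subgroup (GL (Fin 5) F4)} (hH : IsMaximalIn (SUG 5 F4 2) H)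
    (hT : T ≤ SUG 5 F4 2) (hTc : Nat.card T = 11)
    (hHT : H ≤ Subgroup.normalizer (T : Set (GL (Fin 5) F4))) (hc : Nat.card H ∣ 55) : False := by
  obtain ⟨a1, a2, a3⟩ := isom54
  rw [← cj4'] at a1 a2 a3
  obtain ⟨b1, b2, b3, b4, b5⟩ := rel54
  have ht := pow_eq_of_chain tp54 tp54_chain.1 tp54_chain.2.2
  have hu := pow_eq_of_chain up54 up54_chain.1 up54_chain.2.2
  have ht11 : tp54 1 ^ 11 = 1 := (ht 11 le_rfl).trans tp54_chain.2.1
  haveI : Fact (Nat.Prime 11) := ⟨by norm_num⟩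
  have ho : orderOf (isoGL _ a1) = 11 :=
    orderOf_eq_prime (Units.ext ht11) fun h => b2 (congrArg Units.val h)
  have hm := isoGL_mem_of_pow _ a1 ht11 (by norm_num)
  refine singer_model (p := 11) (r := 5) (k := 4) (M := setStab (Set.range x54)) (by norm_num)
    (by norm_num) hH hT hTc ?_ hHT (t := isoGL _ a1) (c := isoGL _ a1) (u := isoGL _ a2)
    (g := isoGL _ a3) (by rwa [ho]) ho hm hm
    (isoGL_mem_of_pow _ a2 ((hu 5 le_rfl).trans up54_chain.2.1) (by norm_num))
    (isoGL_mem_of_pow _ a3 (k := 2) (by rw [sq, b1]) (by norm_num)) rfl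
    (Units.ext ?_) (fun h => b4 (congrArg Units.val h)) (mem_setStab_range _ _ t54_x)
    (mem_setStab_range _ _ u54_x) (mem_setStab_range _ _ s54_x)
    (not_le_setStab (u := x54 0) (v := vc (fc 2 1 1) 4 5 416) (w := Pi.single 0 1) ⟨0, rfl⟩
      (by decide +kernel) ?_ ?_ ?_ ?_) fun i hi h => b5 i hi ?_
  · rw [card_SUG_five_two, show 13685760 = 11 * 1244160 from rfl,
      Nat.factorization_mul (by norm_num) (by norm_num), Finsupp.add_apply,
      Nat.Prime.factorization_self (by norm_num), Nat.factorization_eq_zero_of_not_dvd (by norm_num)]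
  · rw [Units.val_mul, Units.val_mul, Units.val_pow_eq_pow_val, coe_isoGL, coe_isoGL,
      ht 4 (by norm_num), b3]
  iterate 4
    simp only [herm_eq_sum, cj4]
    decide +kernel
  · have := congrArg Units.val h
    rwa [Units.val_mul, Units.val_mul, Units.val_pow_eq_pow_val, coe_isoGL, coe_isoGL,
      ht i hi.le] at this

theorem singer_five_two (hq : q = 2) {H : Subgroup (GL (Fin 5) F)}
    (hH : IsMaximalIn (SUG 5 F q) H) {K : Subalgebra F (Matrix (Fin 5) (Fin 5) F)}
    (hK : IsFieldSubalgebra 5 K) (ha : IsAdjointClosedFor (hermForm 5 F q) K)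
    (h : H ≤ subalgebraNormalizer K) : False := by
  subst hq
  obtain ⟨T, h1, h2, h3⟩ := exists_singer_sub (by norm_num) hK ha (p := 11) (by norm_num)
    (by norm_num) (by norm_num) (by norm_num)
  have h4 := card_singer_dvd (by norm_num) hK ha h hH.1.le
  obtain ⟨H', T', a1, a2, a3, a4, a5⟩ := sylow_transport F4 hH h1 (h.trans h3)
  exact singer_five_two_model a1 a2 (a5.trans h2) a3 (by rw [a4]; simpa using h4)

end Cfsg.Agent.H10
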