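import Cfsg.Agent.H10.UCode
import Cfsg.Agent.H98.ExtTools

/-! Trace description of Hermitian forms over field subalgebras; non-maximal geometric subgroups
of `SU₆(2)`. -/

set_option autoImplicit false
set_option linter.unusedSectionVars false
set_option linter.style.haveILetI false

namespace Cfsg.Agent.H10

open Cfsg Cfsg.Geo Cfsg.Agent.H98 Cfsg.Agent.H99 Matrix Module
open Cfsg.Agent.H9 (F9 F4)

variable {F : Type*} [Field F] [Fintype F] {q : ℕ} [hF : Fact (Fintype.card F = q ^ 2)] {n : ℕ}

local notation "σ" => cj F q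
local notation "𝐡" => hermForm n F q

/-- the 126 points of the reflection group of order `39191040`, reduced modulo two -/
def k126 (v : Fin 6 → F4) : Prop := (∑ i, if v i = 0 then 0 else 1) = 2 ∨ ∏ i, v i = 1

instance decK126 (v : Fin 6 → F4) : Decidable (k126 v) := by unfold k126; infer_instance

theorem k126_tv : ∀ a b c d e f : F4, k126 ![a, b, c, d, e, f] →
    k126 ![b + c + d + e + f, a + c + d + e + f, a + b + d + e + f, a + b + c + e + f,
      a + b + c + d + f, a + b + c + d + e] := by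
  decide +kernel

theorem frame_six_two_model {H : Subgroup (GL (Fin 6) F4)} (hH : IsMaximalIn (SUG 6 F4 2) H)
    (hm : ∀ g ∈ H, ∃ π, BlockMono id π (g : Matrix (Fin 6) (Fin 6) F4)) : False := by
  have hc : cj F4 2 1 = -1 := by decide +kernel
  have hv : hermForm 6 F4 2 (fun _ => 1) (fun _ => 1) = 0 := by decide +kernel
  have hw : hermForm 6 F4 2 ![1, 1, 1, 1, 0, 0] ![1, 1, 1, 1, 0, 0] = 0 := by decide +kernel
  have h2 : (2 : F4) = 0 := by decide +kernel
  refine not_maximal_of' hH (M := setStab {v | k126 v}) (fun g hg => ?_) (fun hS => ?_)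
    (utG_mem hv hc) (mem_setStab_of_finite fun v hv' => ?_) fun hg => ?_
  · obtain ⟨π, hπ⟩ := hm g hg
    have hne := hπ.mono_ne_zero g.det_ne_zero
    refine mem_setStab_of_finite ?_
    rintro v (h1 | h1)
    · left
      rw [← Equiv.sum_comp π]
      exact (Finset.sum_congr rfl fun i _ => by simp [hπ.mono_mulVec, hne]).trans h1
    · right
      have h3 := mono_prod_sq (hH.1.le hg).2 hπ v
      rw [h1] at h3
      generalize ∏ k, ((g : Matrix (Fin 6) (Fin 6) F4) *ᵥ v) k = x at h3
      revert x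
      decide +kernel
  · have h1 := (mem_setStab.1 (hS (utG_mem hw hc)) ![1, 0, 0, 0, 1, 0]).1 (by
      change k126 _; decide +kernel)
    rw [utG_mulVec] at h1
    revert h1
    change ¬ k126 _
    decide +kernel
  · have h1 : v = ![v 0, v 1, v 2, v 3, v 4, v 5] := by ext1 i; fin_cases i <;> rfl
    rw [h1] at hv'
    change k126 _
    convert k126_tv _ _ _ _ _ _ hv' using 1
    rw [utG_mulVec]
    ext1 i
    fin_cases i <;> simp [herm_eq_sum, Fin.sum_univ_succ]
    exacts [by linear_combination v 0 * h2, by linear_combination v 1 * h2,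
      by linear_combination v 2 * h2, by linear_combination v 3 * h2,
      by linear_combination v 4 * h2, by linear_combination v 5 * h2]
  · obtain ⟨π, hπ⟩ := hm _ hg
    have h1 : ∀ i, i ≠ π 0 → i = 0 := fun i hi => by
      by_contra h0
      have := hπ i 0 hi
      rw [coe_utG, unitaryTransvection_eq] at this
      simp [rk1, vecMulVec_apply, h0] at this
    have h3 := h1 1
    have h4 := h1 2
    by_cases h5 : 1 = π 0
    · exact absurd (h4 (by rw [← h5]; decide)) (by decide)
    · exact absurd (h3 h5) (by decide)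

theorem frame_six_two (hq : q = 2) {H : Subgroup (GL (Fin 6) F)}
    (hH : IsMaximalIn (SUG 6 F q) H) {D : Fin 6 → Submodule F (Fin 6 → F)}
    (hD : IsNondegenerateMDecomposition (hermForm 6 F q) 1 D)
    (h : H ≤ decompositionStabilizer D) : False := by
  subst hq
  obtain ⟨H', h1, h2⟩ := frame_transport F4 hH hD h
  exact frame_six_two_model h1 h2

omit [Fintype F] hF in
theorem det_adj {ι : Type} [Fintype ι] [DecidableEq ι] {s : F ≃+* F} {ε : F}
    {f : (ι → F) → (ι → F) → F} (hf : IsSesq s ε f) (x : Matrix ι ι F) :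
    (adj s f x).det = s x.det := by
  rw [adj, show ∀ y : Matrix ι ι F, (y.map s).det = s y.det from fun y =>
    (RingEquiv.map_det s y).symm, det_mul, det_mul, det_transpose, mul_right_comm,
    det_nonsing_inv_mul_det _ hf.isUnit_det_gram, one_mul]

section Ext

variable {K : Type*} [Field K] [Fintype K] [Algebra F K] {Q : ℕ} [Fact (Fintype.card K = Q ^ 2)]

theorem trace_cj (h : ∀ c : F, cj K Q (algebraMap F K c) = algebraMap F K (σ c)) (x : K) :
    Algebra.trace F K (cj K Q x) = σ (Algebra.trace F K x) := by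
  apply (algebraMap F K).injective
  rw [← h, trace_eq_sum_automorphisms, trace_eq_sum_automorphisms, map_sum]
  exact Finset.sum_congr rfl fun ρ _ => by rw [cj_apply, cj_apply, map_pow]

variable [Module K (Fin n → F)] [IsScalarTower F K (Fin n → F)]

theorem exists_mat_smul (k : K) : ∃ A : Matrix (Fin n) (Fin n) F, (∀ v, A *ᵥ v = k • v) ∧
    A.det = Algebra.norm F (k ^ finrank K (Fin n → F)) := by
  haveI : Module.Finite K (Fin n → F) := Module.Finite.of_finite
  have h1 := LinearMap.det_restrictScalars (R := F)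
    (f := (k • LinearMap.id : (Fin n → F) →ₗ[K] (Fin n → F)))
  rw [LinearMap.det_smul, LinearMap.det_id, mul_one] at h1
  exact ⟨LinearMap.toMatrix' ((k • LinearMap.id : (Fin n → F) →ₗ[K] (Fin n → F)).restrictScalars F),
    fun v => by rw [LinearMap.toMatrix'_mulVec]; rfl, by rw [LinearMap.det_toMatrix', h1]⟩

theorem cj_algebraMap (hn : 0 < n) (ha : ∀ (k : K) x y, 𝐡 (k • x) y = 𝐡 x (cj K Q k • y)) (c : F) :
    cj K Q (algebraMap F K c) = algebraMap F K (σ c) := by
  refine smul_left_cancel' (v := (Pi.single ⟨0, hn⟩ 1 : Fin n → F)) (by simp)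
    ((isSesq_herm (q := q)).ext_right fun x => ?_)
  rw [← ha, algebraMap_smul, algebraMap_smul, herm_smul_left, herm_smul_right, cj_cj]

/-- the Hermitian form is the trace of a standard Hermitian form over `K` -/
theorem exists_frameK (hn : 0 < n) (ha : ∀ (k : K) x y, 𝐡 (k • x) y = 𝐡 x (cj K Q k • y)) {m : ℕ}
    (hm : finrank K (Fin n → F) = m) : ∃ ε : (Fin n → F) ≃ₗ[K] (Fin m → K),
      ∀ x y, 𝐡 x y = Algebra.trace F K (hermForm m K Q (ε x) (ε y)) := by
  haveI : Module.Finite K (Fin n → F) := Module.Finite.of_finite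
  let L : (Fin n → F) → Dual F (Fin n → F) := fun y =>
    { toFun := fun x => 𝐡 x y, map_add' := fun a b => herm_add_left _ _ _,
      map_smul' := fun c a => herm_smul_left _ _ _ }
  choose f hf using fun y => exists_trace_dual (K := K) (L y)
  have key : ∀ x y (k : K), Algebra.trace F K (f y x * k) = 𝐡 (k • x) y := fun x y k => by
    rw [mul_comm, ← smul_eq_mul, ← map_smul, ← hf]; rfl
  let C : (Fin n → F) →ₛₗ[cj K Q] (Fin n → F) →ₗ[K] K :=
    { toFun := f
      map_add' := fun a b => LinearMap.ext fun y => eq_of_trace (F := F) fun k => by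
        rw [LinearMap.add_apply, add_mul, map_add, key, key, key, herm_add_right]
      map_smul' := fun c a => LinearMap.ext fun y => eq_of_trace (F := F) fun k => by
        rw [LinearMap.smul_apply, smul_eq_mul, mul_comm (cj K Q c), mul_assoc, key, key, mul_smul,
          ha (cj K Q c), cj_cj] }
  have hne : cj K Q ≠ RingHom.id K := fun h => by
    obtain ⟨a, ha⟩ := exists_cj_ne K Q
    exact ha (by rw [h]; rfl)
  obtain ⟨b, hb⟩ := H27.herm_exists_orthonormal_basis (B := C) hne cj_cj
    ⟨fun x y => eq_of_trace (F := F) fun k => by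
      change Algebra.trace F K (cj K Q (f x y) * k) = Algebra.trace F K (f y x * k)
      rw [← cj_cj (q := Q) k, ← map_mul, trace_cj (cj_algebraMap hn ha), key, key, cj_herm, cj_cj,
        ha]⟩
    (fun x hx => eq_zero_of_herm_right (q := q) fun y => by
      have := key y x 1
      rw [one_smul, show f x y = 0 from hx y, zero_mul, map_zero] at this
      exact this.symm) (ι := Fin m) (by simpa using hm)
  refine ⟨b.equivFun, fun x y => ?_⟩
  have h1 := key x y 1
  rw [one_smul, mul_one] at h1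
  rw [← h1]
  congr 1
  change C y x = _
  conv_lhs => rw [← b.sum_equivFun x, ← b.sum_equivFun y]
  simp only [herm_eq_sum, map_sum, LinearMap.sum_apply, LinearMap.map_smulₛₗ, map_smul,
    LinearMap.smul_apply, smul_eq_mul, hb, mul_ite, mul_zero, Finset.sum_ite_eq',
    Finset.mem_univ, if_true, RingHom.id_apply, mul_one]

theorem hermK_semilinear {m : ℕ} {ε : (Fin n → F) ≃ₗ[K] (Fin m → K)}
    (hε : ∀ x y, 𝐡 x y = Algebra.trace F K (hermForm m K Q (ε x) (ε y)))
    {g : (Fin n → F) → Fin n → F} (hg : ∀ x y, 𝐡 (g x) (g y) = 𝐡 x y) {α : K ≃ₐ[F] K}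
    (hα : ∀ (k : K) x, g (k • x) = α k • g x) (x y : Fin n → F) :
    hermForm m K Q (ε (g x)) (ε (g y)) = α (hermForm m K Q (ε x) (ε y)) :=
  eq_of_trace (F := F) fun k => by
    obtain ⟨k, rfl⟩ := α.surjective k
    rw [← map_mul, trace_aut, mul_comm, mul_comm _ k, ← herm_smul_left, ← herm_smul_left,
      ← map_smul, ← map_smul, ← hα, ← hε, ← hε, hg]

end Ext

theorem herm_KF (hn : 0 < n) [Nonempty (Fin n)] {r : ℕ}
    {K₀ : Subalgebra F (Matrix (Fin n) (Fin n) F)} (hK : IsFieldSubalgebra r K₀)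
    (ha : IsAdjointClosedFor 𝐡 K₀) (k : KF hK) (x y : Fin n → F) :
    𝐡 (k • x) y = 𝐡 x ((k ^ q ^ r) • y) := by
  rw [KF.smul_def, (isSesq_herm (q := q)).adj_spec, adj_eq_pow hn hK ha (KF.mat_mem hK k)]
  rfl

theorem card_KF [Nonempty (Fin n)] {r : ℕ} {K₀ : Subalgebra F (Matrix (Fin n) (Fin n) F)}
    (hK : IsFieldSubalgebra r K₀) [Fintype (KF hK)] : Fintype.card (KF hK) = (q ^ r) ^ 2 := by
  rw [← Nat.card_eq_fintype_card, show Nat.card (KF hK) = Nat.card K₀ from rfl, card_fieldSub hK,
    hF.out, ← pow_mul, ← pow_mul, mul_comm]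

theorem cubic_six_two_aux {F : Type*} [Field F] [Fintype F] [hF : Fact (Fintype.card F = 2 ^ 2)]
    {K : Type*} [Field K] [Fintype K] [Algebra F K] [hK : Fact (Fintype.card K = 8 ^ 2)]
    [Module K (Fin 6 → F)] [IsScalarTower F K (Fin 6 → F)] (hr : finrank F K = 3)
    (hadj : ∀ (k : K) x y, hermForm 6 F 2 (k • x) y = hermForm 6 F 2 x (cj K 8 k • y))
    {H : Subgroup (GL (Fin 6) F)} (hH : IsMaximalIn (SUG 6 F 2) H)
    (h : H ≤ (GamK K : Subgroup ((Fin 6 → F) ≃ₗ[F] (Fin 6 → F))).comap
      (H27.toLE (Fin 6) F : GL (Fin 6) F →* _)) : False := by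
  have h2 : (2 : F) = 0 := two_eq_zero_two (q := 2) rfl
  obtain ⟨ω, hω1, hω⟩ := exists_omega (F := F) (q := 2) rfl
  have hd : finrank K (Fin 6 → F) = 2 := by
    have := finrank_mul_ext (F := F) (K := K) (V := Fin 6 → F)
    rw [hr, Module.finrank_fin_fun] at this
    omega
  obtain ⟨ε, hε⟩ := exists_frameK (by norm_num) hadj hd
  have h2K : (2 : K) = 0 := by rw [← map_ofNat (algebraMap F K), h2, map_zero]
  let D : (Fin 6 → F) → (Fin 6 → F) → K := fun x y => ε x 0 * ε y 1 - ε x 1 * ε y 0
  let B : (Fin 6 → F) → (Fin 6 → F) → F := fun x y => Algebra.trace F _ (D x y)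
  have hεF : ∀ (c : F) x i, ε (c • x) i = c • ε x i := fun c x i => by
    rw [← algebraMap_smul K, map_smul, Pi.smul_apply, algebraMap_smul]
  have hskew : ∀ x y, B x y = -B y x := fun x y => by
    simp only [B, D, ← map_neg]; congr 1; ring
  have hnd : ∀ x, x ≠ 0 → ∃ y, B x y ≠ 0 := fun x hx => by
    by_contra hc
    push Not at hc
    refine hx (ε.map_eq_zero_iff.1 (funext fun i => eq_zero_of_trace (F := F) fun k => ?_))
    fin_cases i
    · simpa [B, D] using hc (ε.symm ![0, k])
    · simpa [B, D] using hc (ε.symm ![k, 0])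
  have hB : IsSymplecticForm B :=
    { bilinear :=
        ⟨fun x y v => by simp only [B, D, ← map_add, map_add ε, Pi.add_apply]; congr 1; ring,
         fun c x v => by
          simp only [B, D, hεF, smul_mul_assoc, ← smul_sub, map_smul, smul_eq_mul],
         fun x y v => by simp only [B, D, ← map_add, map_add ε, Pi.add_apply]; congr 1; ring,
         fun c x v => by
          simp only [B, D, hεF, mul_smul_comm, ← smul_sub, map_smul, smul_eq_mul]⟩
      skew := hskew
      alternating := fun v => by simp [B, D, mul_comm]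
      nondegenerate := fun v hv => by
        obtain ⟨y, hy⟩ := hnd v hv
        exact ⟨⟨y, by rwa [hskew, neg_ne_zero]⟩, ⟨y, hy⟩⟩ }
  have hc : cj F 2 1 = -1 := by rw [map_one]; linear_combination h2
  have hh : ∀ x (a : K), hermForm 6 F 2 x (ε.symm ![1, a]) =
      Algebra.trace F _ (ε x 0 + ε x 1 * cj K 8 a) := fun x a => by
    rw [hε]; simp [herm_eq_sum]
  have hiso : ∀ a : K, a * cj K 8 a = 1 →
      hermForm 6 F 2 (ε.symm ![1, a]) (ε.symm ![1, a]) = 0 := fun a h => by
    rw [hh]; simp [h, one_add_one_eq_two, h2K]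
  have hw := hiso 1 (by simp)
  obtain ⟨a, ha9⟩ : ∃ a : Kˣ, orderOf a = 9 := by
    obtain ⟨g, hg⟩ := IsCyclic.exists_ofOrder_eq_natCard (α := Kˣ)
    rw [Nat.card_units, Nat.card_eq_fintype_card, hK.out] at hg
    exact ⟨g ^ 7, by rw [orderOf_pow' _ (by norm_num), hg]; rfl⟩
  have ha1 : (a : K) * cj K 8 a = 1 := by
    rw [mul_cj_eq_pow, ← Units.val_pow_eq_pow_val, show 8 + 1 = orderOf a from ha9.symm,
      pow_orderOf_eq_one, Units.val_one]
  have hv := hiso a ha1
  obtain ⟨s, hs⟩ := Algebra.trace_surjective F K 1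
  obtain ⟨t, ht, hat⟩ : ∃ t : K, Algebra.trace F _ t = 0 ∧ Algebra.trace F _ (a * t) ≠ 0 := by
    by_contra hcon
    push Not at hcon
    have h3 : (a : K) = algebraMap F _ (Algebra.trace F _ (a * s)) :=
      eq_of_trace (F := F) fun u => by
        have := hcon (u - Algebra.trace F _ u • s) (by simp [hs])
        rw [mul_sub, map_sub, mul_smul_comm, map_smul, sub_eq_zero] at this
        rw [this, ← Algebra.smul_def, map_smul, smul_eq_mul, smul_eq_mul, mul_comm]
    have h4 : Algebra.trace F _ ((a : K) * s) ^ 3 = 1 := by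
      have := FiniteField.pow_card_sub_one_eq_one (Algebra.trace F _ ((a : K) * s))
        fun h0 => a.ne_zero (by rw [h3, h0, map_zero])
      rwa [hF.out] at this
    have h5 : a ^ 3 = 1 := Units.ext (by
      rw [Units.val_pow_eq_pow_val, h3, ← map_pow, h4, map_one, Units.val_one])
    exact absurd (ha9 ▸ orderOf_dvd_of_pow_eq_one h5) (by norm_num)
  refine not_maximal_of hH h (M := similarityGroup B) ?_
    (fun hS => utG_not_mem_sim hB.bilinear hv hc one_ne_zero (x := ε.symm ![s, 0])
      (y := ε.symm ![t, 0]) ?_ ?_ ?_ ?_ (hS (utG_mem hv hc)))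
    (utG_mem hw hc) (utG_mem_sim hB hw hc (a := 1) fun x => ?_) fun hg => ?_
  · rintro g ⟨hg, hu, hdet⟩
    obtain ⟨α, hα⟩ := hg
    have hα' : ∀ (k : K) x, (g : Matrix (Fin 6) (Fin 6) F) *ᵥ (k • x) =
        α k • (g : Matrix (Fin 6) (Fin 6) F) *ᵥ x := hα
    have h3 := hermK_semilinear hε (g := fun x => (g : Matrix (Fin 6) (Fin 6) F) *ᵥ x) hu hα'
    let M : Matrix (Fin 2) (Fin 2) K := Matrix.of fun i j =>
      ε ((g : Matrix (Fin 6) (Fin 6) F) *ᵥ ε.symm (Pi.single j 1)) i
    have hM : IsIsom 8 M := (isIsom_iff M).2 (by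
      ext i j
      have := h3 (ε.symm (Pi.single i 1)) (ε.symm (Pi.single j 1))
      rw [herm_eq_sum, herm_eq_sum] at this
      refine Eq.trans (by simp [M, Matrix.mul_apply]) (this.trans ?_)
      fin_cases i <;> fin_cases j <;> simp)
    have h4 : ∀ x i, ε ((g : Matrix (Fin 6) (Fin 6) F) *ᵥ x) i =
        α (ε x 0) * M i 0 + α (ε x 1) * M i 1 := fun x i => by
      have : x = ε x 0 • ε.symm (Pi.single 0 1) + ε x 1 • ε.symm (Pi.single 1 1) :=
        ε.injective (by ext1 j; fin_cases j <;> simp)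
      conv_lhs => rw [this, mulVec_add, hα', hα', map_add, map_smul, map_smul]
      rfl
    obtain ⟨d, hd'⟩ := α.surjective M.det
    have h5 : ∀ x y, B ((g : Matrix (Fin 6) (Fin 6) F) *ᵥ x) ((g : Matrix (Fin 6) (Fin 6) F) *ᵥ y) =
        Algebra.trace F _ (d * D x y) := fun x y => by
      rw [← trace_aut α, map_mul, hd']
      simp only [B, D, h4, det_fin_two, map_sub, map_mul]
      rw [← map_sub]
      congr 1
      ring
    have h6 : d ^ 9 = 1 := α.injective (by
      rw [map_pow, hd', map_one, ← hM.det_mul_cj, mul_cj_eq_pow])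
    have hS := isSesq_of_symplectic hB
    obtain ⟨A, hA, hA'⟩ := exists_mat_smul (F := F) (n := 6) d
    have h7 : adj _ B g * g = A := matrix_ext_mulVec fun y => hS.ext_right fun x => by
      rw [← mulVec_mulVec, ← hS.adj_spec, h5, hA]
      simp only [B, D, map_smul, Pi.smul_apply, smul_eq_mul]
      congr 1
      ring
    have h8 := congrArg det h7
    rw [det_mul, det_adj hS, mem_sl.1 hdet, hA', hd] at h8
    have h9 := FiniteField.algebraMap_norm_eq_pow (K := F) (K' := K) (x := d ^ 2)
    rw [← h8, Nat.card_eq_fintype_card, Nat.card_eq_fintype_card, hK.out, hF.out,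
      ← pow_mul] at h9
    have h10 : d ^ 3 = 1 := pow_gcd_eq_one.2 ⟨h6, show d ^ 42 = 1 by simpa using h9.symm⟩
    have h11 : IsPrimitiveRoot (algebraMap F K ω) 3 :=
      (IsPrimitiveRoot.coe_units_iff.2 ((orderOf_eq_prime hω hω1) ▸
        IsPrimitiveRoot.orderOf ω)).map_of_injective (algebraMap F K).injective
    obtain ⟨i, -, hi⟩ := h11.eq_pow_of_pow_eq_one h10
    refine ⟨ω ^ i, fun x y => ?_⟩
    rw [h5, ← hi, ← map_pow, ← Algebra.smul_def, map_smul, Units.val_pow_eq_pow_val, smul_eq_mul]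
  · rw [hh]; simp [hs]
  · rw [hh]; simp [ht]
  · simp [B, D]
  · simpa [B, D] using hat
  · rw [hh, one_mul]
    simp only [B, D]
    congr 1
    simp only [LinearEquiv.apply_symm_apply, cons_val_one, cons_val_zero, map_one]
    linear_combination (-ε x 1) * h2K
  · let χ : Dual K (Fin 6 → F) :=
      { toFun := fun x => ε x 0 + ε x 1
        map_add' := fun x y => by simp only [map_add, Pi.add_apply]; ring
        map_smul' := fun c x => by simp [mul_add] }
    refine tv_not_mem_GamK (F := F) (K := K) (by rw [hr]; norm_num)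
      (v := ε.symm ![1, 1]) (x₀ := ε.symm ![1, 0]) (χ := χ)
      (fun h0 => by simpa using congrFun (congrArg ε h0) 0) (by simp [χ, one_add_one_eq_two, h2K])
      (by simp [χ]) (fun x => ?_) hg
    change H27.toLE (Fin 6) F (utG hw hc) x = _
    rw [H27.toLE_apply, utG_mulVec, hh]
    simp [χ]

theorem cubic_six_two (hq : q = 2) {H : Subgroup (GL (Fin 6) F)} (hH : IsMaximalIn (SUG 6 F q) H)
    {K₀ : Subalgebra F (Matrix (Fin 6) (Fin 6) F)} (hK : IsFieldSubalgebra 3 K₀)
    (ha : IsAdjointClosedFor (hermForm 6 F q) K₀) (h : H ≤ subalgebraNormalizer K₀) : False := by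
  subst hq
  haveI : Fintype (KF hK) := Fintype.ofFinite _
  haveI : Fact (Fintype.card (KF hK) = 8 ^ 2) := ⟨card_KF (q := 2) hK⟩
  exact cubic_six_two_aux (K := KF hK) (KF.finrank_eq hK) (herm_KF (q := 2) (by norm_num) hK ha) hH
    (by rwa [comap_GamK])

end Cfsg.Agent.H10
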