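import Cfsg.Agent.H10.UFive

/-! The Singer normalisers of `SU₃(3)` and `SU₃(5)` lie in `L₂(7)` and `3 × L₂(7)`. -/

set_option autoImplicit false
set_option linter.unusedSectionVars false
set_option linter.style.haveILetI false

namespace Cfsg.Agent.H10

open Cfsg Cfsg.Geo Cfsg.Agent.H98 Cfsg.Agent.H99 Matrix
open Cfsg.Agent.H9 (F9 F4)

variable {F : Type*} [Field F] [Fintype F] {q : ℕ} [hF : Fact (Fintype.card F = q ^ 2)] {n : ℕ}

instance factPrimeFive : Fact (Nat.Prime 5) := ⟨Nat.prime_five⟩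

instance factF25 : Fact (∀ r : ZMod 5, r ^ 2 ≠ 2 + 0 * r) := ⟨by decide⟩

/-- The field with twenty-five elements. -/
abbrev F25 : Type := QuadraticAlgebra (ZMod 5) 2 0

instance fintypeF25 : Fintype F25 := Fintype.ofEquiv _ (QuadraticAlgebra.equivProd _ _).symm

instance factCardF25 : Fact (Fintype.card F25 = 5 ^ 2) :=
  ⟨by rw [Fintype.card_congr (QuadraticAlgebra.equivProd _ _)]; simp⟩

/-- conjugation in the field with twenty-five elements -/
def c25 (x : F25) : F25 := ⟨x.re, -x.im⟩

theorem cj25 (x : F25) : cj F25 5 x = c25 x := by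
  rw [cj_apply]; revert x; decide +kernel

theorem cj25' : (cj F25 5 : F25 → F25) = c25 := funext cj25

/-- the determinant of a matrix of degree three -/
def det3 {R : Type*} [CommRing R] (A : Matrix (Fin 3) (Fin 3) R) : R :=
  A 0 0 * A 1 1 * A 2 2 - A 0 0 * A 1 2 * A 2 1 - A 0 1 * A 1 0 * A 2 2 + A 0 1 * A 1 2 * A 2 0 +
    A 0 2 * A 1 0 * A 2 1 - A 0 2 * A 1 1 * A 2 0

theorem det_eq_det3 {R : Type*} [CommRing R] (A : Matrix (Fin 3) (Fin 3) R) : A.det = det3 A :=
  Matrix.det_fin_three A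

/-- a decidable form of membership in `SU₃` -/
def IsSU3 {R : Type*} [CommRing R] (c : R → R) (A : Matrix (Fin 3) (Fin 3) R) : Prop :=
  Aᵀ * A.map c = 1 ∧ det3 A = 1

instance decIsSU3 {R : Type*} [CommRing R] [DecidableEq R] (c : R → R)
    (A : Matrix (Fin 3) (Fin 3) R) : Decidable (IsSU3 c A) := by
  unfold IsSU3; infer_instance

/-- a certificate that a matrix permutes a family of points -/
def ConeCert {K : Type*} [Field K] (f : ℕ → K) {N : ℕ} [NeZero N] (X : Fin N → Fin n → K)
    (A : Matrix (Fin n) (Fin n) K) (c : ℕ) : Prop :=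
  ∀ i : Fin N, f (c / 2048 ^ (i : ℕ) % 2048 / 64) ≠ 0 ∧
    A *ᵥ X i = f (c / 2048 ^ (i : ℕ) % 2048 / 64) • X (Fin.ofNat N (c / 2048 ^ (i : ℕ) % 64))

instance decConeCert {K : Type*} [Field K] [DecidableEq K] (f : ℕ → K) {N : ℕ} [NeZero N]
    (X : Fin N → Fin n → K) (A : Matrix (Fin n) (Fin n) K) (c : ℕ) :
    Decidable (ConeCert f X A c) := by
  unfold ConeCert; infer_instance

omit hF in
theorem ConeCert.mem {f : ℕ → F} {N : ℕ} [NeZero N] {X : Fin N → Fin n → F} {g : GL (Fin n) F}
    {c : ℕ} (h : ConeCert f X (g : Matrix (Fin n) (Fin n) F) c) : g ∈ setStab (coneOf X) :=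
  mem_setStab_cone X _ _ h

omit hF [Fintype F] in
theorem mem_coneOf {N : ℕ} (X : Fin N → Fin n → F) (i : Fin N) : X i ∈ coneOf X :=
  ⟨i, 1, one_ne_zero, (one_smul _ _).symm⟩

omit hF [Fintype F] in
theorem not_mem_coneOf {N : ℕ} {X : Fin N → Fin n → F} {v : Fin n → F}
    (h : ∀ i (c : F), v ≠ c • X i) : v ∉ coneOf X := fun ⟨i, c, _, hc⟩ => h i c hc

theorem factorization_eq_one {p m : ℕ} (hp : p.Prime) (hm : ¬ p ∣ m) :
    (p * m).factorization p = 1 := by
  rw [Nat.factorization_mul hp.ne_zero (by rintro rfl; simp at hm), Finsupp.add_apply,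
    hp.factorization_self, Nat.factorization_eq_zero_of_not_dvd hm]

theorem card_SUG_three_three : Nat.card (SUG 3 F9 3) = 6048 := by
  have := card_SUG_mul (F := F9) (q := 3) (n := 3) (by norm_num)
  rw [show (3 ^ (3 * (3 - 1) / 2) * ∏ i ∈ Finset.range 3,
    if Even i then 3 ^ (i + 1) + 1 else 3 ^ (i + 1) - 1) = 24192 by decide +kernel] at this
  omega

theorem card_SUG_three_five : Nat.card (SUG 3 F25 5) = 378000 := by
  have := card_SUG_mul (F := F25) (q := 5) (n := 3) (by norm_num)
  rw [show (5 ^ (3 * (3 - 1) / 2) * ∏ i ∈ Finset.range 3,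
    if Even i then 5 ^ (i + 1) + 1 else 5 ^ (i + 1) - 1) = 2268000 by decide +kernel] at this
  omega

/-- coded elements of the field with nine elements -/
def e9 : ℕ → F9 := fc 3 (-1) 0

/-- coded elements of the field with twenty-five elements -/
def e25 : ℕ → F25 := fc 5 2 0

/-- coded matrices of degree three over the field with nine elements -/
def m39 (c : ℕ) : Matrix (Fin 3) (Fin 3) F9 := mc e9 9 3 c

/-- coded matrices of degree three over the field with twenty-five elements -/
def m325 (c : ℕ) : Matrix (Fin 3) (Fin 3) F25 := mc e25 25 3 c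

/-- powers of an element of order seven -/
def tp33 (i : ℕ) : Matrix (Fin 3) (Fin 3) F9 :=
  m39 ([43053283, 94848159, 9985036, 352403643, 217984407, 21907222, 120181866, 43053283].getD i 0)

/-- an orbit of `L₂(7)` on points -/
def x33 (i : Fin 21) : Fin 3 → F9 :=
  vc e9 9 3 ([495, 442, 622, 154, 550, 208, 244, 424, 676, 523, 388, 469, 559, 667, 586, 343,
    10, 532, 694, 361, 640].getD i 0)

theorem tp33_chain : tp33 0 = 1 ∧ tp33 7 = 1 ∧ ∀ i < 7, tp33 i * tp33 1 = tp33 (i + 1) := by
  decide +kernel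

theorem isom33 : IsSU3 c9 (tp33 1) ∧ IsSU3 c9 (tp33 1) ∧
    IsSU3 c9 (m39 230749066) ∧ IsSU3 c9 (m39 82142380) := by
  decide +kernel

theorem rel33 : tp33 1 ≠ 1 ∧ m39 230749066 * tp33 1 = tp33 2 * m39 230749066 ∧
    m39 230749066 * tp33 1 ≠ tp33 1 * m39 230749066 ∧
    ∀ i < 7, m39 82142380 * tp33 1 ≠ tp33 i * m39 82142380 := by
  decide +kernel

theorem cert33 : ConeCert e9 x33 (tp33 1)
      783592594576324444287777319817343562654547278559235360069229033566532 ∧
    ConeCert e9 x33 (m39 230749066)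
      551425241182003491058244330070043255785215854104204739117795494369605 ∧
    ConeCert e9 x33 (m39 82142380)
      249500638166650663749732331125253161656556519460960268846420675657793 := by
  decide +kernel

theorem singer33_model {H T : Subgroup (GL (Fin 3) F9)} (hH : IsMaximalIn (SUG 3 F9 3) H)
    (hT : T ≤ SUG 3 F9 3) (hTc : Nat.card T = 7)
    (hHT : H ≤ Subgroup.normalizer (T : Set (GL (Fin 3) F9))) (hc : Nat.card H ∣ 3 * 7) :
    False := by
  have a := isom33
  simp only [IsSU3, ← cj9', ← det_eq_det3] at a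
  obtain ⟨a1, a2, a3, a4⟩ := a
  obtain ⟨b2, b3, b4, b5⟩ := rel33
  have ht := pow_eq_of_chain tp33 tp33_chain.1 tp33_chain.2.2
  have ht7 : tp33 1 ^ 7 = 1 := (ht 7 le_rfl).trans tp33_chain.2.1
  haveI : Fact (Nat.Prime 7) := ⟨by norm_num⟩
  have ho : orderOf (isoGL _ a1.1) = 7 :=
    orderOf_eq_prime (Units.ext ht7) fun h => b2 (congrArg Units.val h)
  refine singer_model (p := 7) (r := 3) (k := 2) (M := setStab (coneOf x33)) (by norm_num)
    (by norm_num) hH hT hTc ?_ hHT (t := isoGL _ a1.1) (c := isoGL _ a2.1) (u := isoGL _ a3.1)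
    (g := isoGL _ a4.1) (by rwa [ho]) ho (isoGL_mem _ _ a1.2) (isoGL_mem _ _ a2.2)
    (isoGL_mem _ _ a3.2) (isoGL_mem _ _ a4.2) rfl
    (Units.ext ?_) (fun h => b4 (congrArg Units.val h)) (ConeCert.mem cert33.1)
    (ConeCert.mem cert33.2.1) (ConeCert.mem cert33.2.2)
    (not_le_setStab (u := x33 0) (v := vc e9 9 3 324) (w := vc e9 9 3 252)
      (mem_coneOf _ 0) (not_mem_coneOf (by decide +kernel)) ?_ ?_ ?_ ?_) fun i hi h => b5 i hi ?_
  · rw [card_SUG_three_three]
    exact factorization_eq_one (m := 864) (by norm_num) (by norm_num)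
  · rw [Units.val_mul, Units.val_mul, Units.val_pow_eq_pow_val, coe_isoGL, coe_isoGL,
      ht 2 (by norm_num), b3]
  iterate 4
    simp only [herm_eq_sum, cj9]
    decide +kernel
  · have := congrArg Units.val h
    rwa [Units.val_mul, Units.val_mul, Units.val_pow_eq_pow_val, coe_isoGL, coe_isoGL,
      ht i hi.le] at this

/-- powers of an element of order seven -/
def tp35 (i : ℕ) : Matrix (Fin 3) (Fin 3) F25 :=
  m325 ([152588281251, 2019758960457, 2849840809967, 1033927182028, 3262101124853, 2033803645412,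
    2799520520222, 152588281251].getD i 0)

/-- powers of an element of order twenty-one -/
def cp35 (i : ℕ) : Matrix (Fin 3) (Fin 3) F25 :=
  m325 ([152588281251, 698460503458, 738139684012, 1033927182028, 471301224881, 2792129416126,
    2799520520222, 1831059375012, 2819439618240, 2849840809967, 3326994715531, 1065486814171,
    2033803645412, 2079994208510, 2594000781267, 2019758960457, 2102266104301, 561307121971,
    3262101124853, 705377974242, 658153806448, 152588281251].getD i 0)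

theorem cp35_chain : cp35 0 = 1 ∧ cp35 21 = 1 ∧ cp35 3 ≠ 1 ∧ cp35 7 ≠ 1 ∧
    cp35 1 * tp35 1 = tp35 1 * cp35 1 ∧ ∀ i < 21, cp35 i * cp35 1 = cp35 (i + 1) := by
  decide +kernel

/-- an orbit of `L₂(7)` on points -/
def x35 (i : Fin 21) : Fin 3 → F25 :=
  vc e25 25 3 ([626, 3801, 12001, 9151, 14351, 8276, 13676, 15126, 11776, 5026, 2451, 9501,
    3051, 2726, 1601, 14676, 10551, 2701, 3201, 2826, 6051].getD i 0)

theorem tp35_chain : tp35 0 = 1 ∧ tp35 7 = 1 ∧ ∀ i < 7, tp35 i * tp35 1 = tp35 (i + 1) := by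
  decide +kernel

theorem isom35 : IsSU3 c25 (tp35 1) ∧ IsSU3 c25 (cp35 1) ∧
    IsSU3 c25 (m325 3318733105103) ∧ IsSU3 c25 (m325 332803277476) := by
  decide +kernel

theorem rel35 : tp35 1 ≠ 1 ∧ m325 3318733105103 * tp35 1 = tp35 2 * m325 3318733105103 ∧
    m325 3318733105103 * cp35 1 ≠ cp35 1 * m325 3318733105103 ∧
    ∀ i < 7, m325 332803277476 * tp35 1 ≠ tp35 i * m325 332803277476 := by
  decide +kernel

theorem cert35 : ConeCert e25 x35 (cp35 1)
      1968615374085381495435100585279218176201552530783053027962727036627778 ∧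
    ConeCert e25 x35 (m325 3318733105103)
      1516605200074541764412604553142724209257847788424563708027381387770892 ∧
    ConeCert e25 x35 (m325 332803277476)
      142132211947395348176244411997848335920504088312483230086457585435841 := by
  decide +kernel

theorem singer35_model {H T : Subgroup (GL (Fin 3) F25)} (hH : IsMaximalIn (SUG 3 F25 5) H)
    (hT : T ≤ SUG 3 F25 5) (hTc : Nat.card T = 7)
    (hHT : H ≤ Subgroup.normalizer (T : Set (GL (Fin 3) F25))) (hc : Nat.card H ∣ 3 * 21) :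
    False := by
  have a := isom35
  simp only [IsSU3, ← cj25', ← det_eq_det3] at a
  obtain ⟨a1, a2, a3, a4⟩ := a
  obtain ⟨b2, b3, b4, b5⟩ := rel35
  have ht := pow_eq_of_chain tp35 tp35_chain.1 tp35_chain.2.2
  have ht7 : tp35 1 ^ 7 = 1 := (ht 7 le_rfl).trans tp35_chain.2.1
  haveI : Fact (Nat.Prime 7) := ⟨by norm_num⟩
  have ho : orderOf (isoGL _ a1.1) = 7 :=
    orderOf_eq_prime (Units.ext ht7) fun h => b2 (congrArg Units.val h)
  obtain ⟨c1, c2, c3, c4, c5, c6⟩ := cp35_chain
  have hcp := pow_eq_of_chain cp35 c1 c6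
  have ho' : orderOf (isoGL _ a2.1) = 21 := by
    refine orderOf_eq_of_pow_and_pow_div_prime (by norm_num)
      (Units.ext ((hcp 21 le_rfl).trans c2)) fun p hp hd h => ?_
    rcases (Nat.Prime.dvd_mul hp).1 (show p ∣ 3 * 7 from hd) with h1 | h1
    · obtain rfl := (Nat.prime_dvd_prime_iff_eq hp Nat.prime_three).1 h1
      rw [show 21 / 3 = 7 from rfl, Units.ext_iff, Units.val_pow_eq_pow_val, coe_isoGL,
        hcp 7 (by norm_num)] at h
      exact c4 h
    · obtain rfl := (Nat.prime_dvd_prime_iff_eq hp (by norm_num)).1 h1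
      rw [show 21 / 7 = 3 from rfl, Units.ext_iff, Units.val_pow_eq_pow_val, coe_isoGL,
        hcp 3 (by norm_num)] at h
      exact c3 h
  refine singer_model (p := 7) (r := 3) (k := 2) (M := setStab (coneOf x35)) (by norm_num)
    (by norm_num) hH hT hTc ?_ hHT (t := isoGL _ a1.1) (c := isoGL _ a2.1) (u := isoGL _ a3.1)
    (g := isoGL _ a4.1) (by rwa [ho']) ho (isoGL_mem _ _ a1.2) (isoGL_mem _ _ a2.2)
    (isoGL_mem _ _ a3.2) (isoGL_mem _ _ a4.2) (Units.ext c5)
    (Units.ext ?_) (fun h => b4 (congrArg Units.val h)) (ConeCert.mem cert35.1)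
    (ConeCert.mem cert35.2.1) (ConeCert.mem cert35.2.2)
    (not_le_setStab (u := x35 0) (v := vc e25 25 3 4375) (w := vc e25 25 3 25)
      (mem_coneOf _ 0) (not_mem_coneOf (by decide +kernel)) ?_ ?_ ?_ ?_) fun i hi h => b5 i hi ?_
  · rw [card_SUG_three_five]
    exact factorization_eq_one (m := 54000) (by norm_num) (by norm_num)
  · rw [Units.val_mul, Units.val_mul, Units.val_pow_eq_pow_val, coe_isoGL, coe_isoGL,
      ht 2 (by norm_num), b3]
  iterate 4
    simp only [herm_eq_sum, cj25]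
    decide +kernel
  · have := congrArg Units.val h
    rwa [Units.val_mul, Units.val_mul, Units.val_pow_eq_pow_val, coe_isoGL, coe_isoGL,
      ht i hi.le] at this

theorem singer_three (hq : q = 3 ∨ q = 5) {H : Subgroup (GL (Fin 3) F)}
    (hH : IsMaximalIn (SUG 3 F q) H) {K : Subalgebra F (Matrix (Fin 3) (Fin 3) F)}
    (hK : IsFieldSubalgebra 3 K) (ha : IsAdjointClosedFor (hermForm 3 F q) K)
    (h : H ≤ subalgebraNormalizer K) : False := by
  have h4 := card_singer_dvd (by norm_num) hK ha h hH.1.le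
  rcases hq with rfl | rfl
  · obtain ⟨T, h1, h2, h3⟩ := exists_singer_sub (by norm_num) hK ha (p := 7) (by norm_num)
      (by norm_num) (by norm_num) (by norm_num)
    obtain ⟨H', T', a1, a2, a3, a4, a5⟩ := sylow_transport F9 hH h1 (h.trans h3)
    exact singer33_model a1 a2 (a5.trans h2) a3 (by rw [a4]; simpa using h4)
  · obtain ⟨T, h1, h2, h3⟩ := exists_singer_sub (by norm_num) hK ha (p := 7) (by norm_num)
      (by norm_num) (by norm_num) (by norm_num)
    obtain ⟨H', T', a1, a2, a3, a4, a5⟩ := sylow_transport F25 hH h1 (h.trans h3)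
    exact singer35_model a1 a2 (a5.trans h2) a3 (by rw [a4]; simpa using h4)

end Cfsg.Agent.H10
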