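import Cfsg.Agent.H10.UThreeA
import Cfsg.Agent.H27.Orth

/-! Orthogonal subfield subgroups and frame stabilisers of `SU₃(3)` and `SU₃(5)`. -/

set_option autoImplicit false
set_option linter.unusedSectionVars false
set_option linter.style.haveILetI false

namespace Cfsg.Agent.H10

open Cfsg Cfsg.Geo Cfsg.Agent.H98 Cfsg.Agent.H99 Matrix
open Cfsg.Agent.H9 (F9 F4)

variable {F : Type*} [Field F] [Fintype F] {q : ℕ} [hF : Fact (Fintype.card F = q ^ 2)] {n : ℕ}

local notation "σ" => cj F q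
local notation "𝐡" => hermForm n F q

omit hF in
theorem exists_sim_orthonormal (h2 : (2 : F) ≠ 0) {G : Matrix (Fin 3) (Fin 3) F} (hs : Gᵀ = G)
    (hd : G.det ≠ 0) : ∃ (Q : Matrix (Fin 3) (Fin 3) F) (c : F), c ≠ 0 ∧ Qᵀ * G * Q = c • 1 := by
  obtain ⟨α, hα⟩ := FiniteField.exists_nonsquare (F := F) (fun h => h2 (by
    have := ringChar.Nat.cast_ringChar (R := F)
    rwa [h] at this))
  have hα0 : α ≠ 0 := by rintro rfl; exact hα IsSquare.zero
  have hS : (Matrix.toBilin' G).IsSymm := ⟨fun x y => by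
    rw [Matrix.toBilin'_apply', Matrix.toBilin'_apply', dotProduct_mulVec,
      ← mulVec_transpose, hs, dotProduct_comm]⟩
  have hB : (Matrix.toBilin' G).SeparatingLeft :=
    (LinearMap.BilinForm.nondegenerate_toBilin'_of_det_ne_zero' G hd).1
  obtain ⟨b, h1, h3, h4⟩ := H27.symm_exists_basis h2 hS hB (n := 2) (by simp) α hα
  have key : ∀ (u : Fin 3 → Fin 3 → F) (c : F),
      (∀ i j, Matrix.toBilin' G (u i) (u j) = if i = j then c else 0) →
      (Matrix.of u)ᵀᵀ * G * (Matrix.of u)ᵀ = c • 1 := by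
    intro u c h
    ext i j
    have := h i j
    rw [Matrix.toBilin'_apply'] at this
    rw [transpose_transpose, Matrix.mul_assoc, Matrix.smul_apply, one_apply, smul_ite, smul_zero,
      smul_eq_mul, mul_one, ← this]
    rfl
  have b0 := h3 0 (by decide)
  have b1 := h3 1 (by decide)
  change Matrix.toBilin' G (b 2) (b 2) = 1 ∨ Matrix.toBilin' G (b 2) (b 2) = α at h4
  rcases h4 with h4 | h4
  · refine ⟨_, 1, one_ne_zero, key b 1 fun i j => ?_⟩
    split_ifs with h
    · subst h; fin_cases i <;> assumption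
    · exact h1 i j h
  · obtain ⟨s, t, hst⟩ : ∃ s t : F, s * s + t * t = α := by
      obtain ⟨x, -, hx⟩ := H27.symm_exists_self_eq h2 (B := Matrix.toBilin' (1 : Matrix (Fin 2) (Fin 2) F))
        ⟨fun x y => by simp [Matrix.toBilin'_apply', dotProduct_comm]⟩ ⊤
        (fun x _ hx => (LinearMap.BilinForm.nondegenerate_toBilin'_of_det_ne_zero' _ (by simp)).1 x
          fun y => hx y trivial) (by simp) α
      exact ⟨x 0, x 1, by simpa [Matrix.toBilin'_apply', dotProduct] using hx⟩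
    refine ⟨_, α, hα0, key ![s • b 0 + t • b 1, -t • b 0 + s • b 1, b 2] α fun i j => ?_⟩
    fin_cases i <;> fin_cases j <;>
      simp [b0, b1, h4, h1 0 1, h1 1 0, h1 0 2, h1 2 0, h1 1 2, h1 2 1] <;>
      first | linear_combination hst | ring

/-- a matrix that is fixed by conjugation up to a scalar factor -/
def IsRealProj (s : F → F) (A : Matrix (Fin n) (Fin n) F) : Prop :=
  ∃ d : F, d ≠ 0 ∧ ∀ i j, s (d * A i j) = d * A i j

theorem real_frame (hq : Odd q) {F₀ : Subfield F} (hc : Fintype.card F = Nat.card F₀ ^ 2)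
    {P : GL (Fin 3) F} (hP : IsFormRationalStructure (hermForm 3 F q) F₀ 1 P) :
    ∃ P' : GL (Fin 3) F, IsONF (sig F q) (hermForm 3 F q) (Equiv.refl _) P' ∧
      ∀ g : GL (Fin 3) F, frmG (Equiv.refl _) P' g ∈ subfieldSubgroup F₀ P →
        IsRealProj σ (g : Matrix (Fin 3) (Fin 3) F) := by
  haveI : Fintype F₀ := Fintype.ofFinite _
  have hm := mem_iff_cj_of_card (q := q) hc
  let G : Matrix (Fin 3) (Fin 3) F := (P : Matrix (Fin 3) (Fin 3) F)ᵀ * (P : Matrix _ _ F).map σ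
  have hG : ∀ i j, G i j ∈ F₀ := fun i j => by
    have := hP _ _ (single_mem_subfield F₀ i) (single_mem_subfield F₀ j)
    rw [one_mul, mulVec_single_one, mulVec_single_one] at this
    exact this
  let G₀ : Matrix (Fin 3) (Fin 3) F₀ := Matrix.of fun i j => ⟨G i j, hG i j⟩
  have hG₀ : G₀.map F₀.subtype = G := rfl
  obtain ⟨Q₀, c, hc0, hQ⟩ := exists_sim_orthonormal (F := F₀) (G := G₀)
    (fun h => two_ne_zero_of_odd' (F := F) hq (congrArg Subtype.val h))
    (by
      ext i j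
      change G j i = G i j
      rw [← (hm _).1 (hG i j)]
      simp [G, Matrix.mul_apply, mul_comm, cj_cj])
    (fun h => by
      have h1 := congrArg F₀.subtype h
      rw [RingHom.map_det, RingHom.mapMatrix_apply, hG₀, map_zero, det_mul, det_transpose,
        ← RingHom.mapMatrix_apply, ← RingHom.map_det] at h1
      exact mul_ne_zero P.det_ne_zero (cj_ne_zero.2 P.det_ne_zero) h1)
  let Q : Matrix (Fin 3) (Fin 3) F := Q₀.map F₀.subtype
  have hQs : Q.map σ = Q := by ext i j; exact (hm _).1 (Q₀ i j).2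
  have hQ' : Qᵀ * G * Q = (c : F) • 1 := by
    have := congrArg (F₀.subtype.mapMatrix) hQ
    rw [map_mul, map_mul] at this
    refine this.trans ?_
    ext i j
    by_cases h : i = j <;> simp [Matrix.one_apply, h]
  obtain ⟨l, hl⟩ := exists_norm_eq (F := F) (q := q) (t := (c : F)⁻¹)
    (by rw [map_inv₀, (hm _).1 c.2])
  have hc1 : (c : F) ≠ 0 := fun h => hc0 (Subtype.ext h)
  have hiso : (l • ((P : Matrix (Fin 3) (Fin 3) F) * Q))ᵀ *
      (l • ((P : Matrix (Fin 3) (Fin 3) F) * Q)).map σ = 1 := by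
    rw [Matrix.map_smul' _ _ _ (map_mul σ), Matrix.map_mul, hQs, transpose_smul, transpose_mul,
      smul_mul_smul_comm, hl, show Qᵀ * (P : Matrix (Fin 3) (Fin 3) F)ᵀ *
        ((P : Matrix (Fin 3) (Fin 3) F).map σ * Q) = Qᵀ * G * Q by simp only [G, Matrix.mul_assoc],
      hQ', smul_smul, inv_mul_cancel₀ hc1, one_smul]
  refine ⟨isoGL _ hiso, fun x y => (isIsom_iff _).2 hiso x y, fun g hg => ?_⟩
  obtain ⟨d, hd⟩ := H98.mem_subfieldSubgroup.1 hg
  set Y := (d : F) • H98.cj P⁻¹ ((frmG (Equiv.refl _) (isoGL _ hiso) g : GL (Fin 3) F) :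
    Matrix (Fin 3) (Fin 3) F) with hY
  have hYs : Y.map σ = Y := by ext i j; exact (hm _).1 (hd i j)
  have hl0 : l ≠ 0 := by rintro rfl; exact inv_ne_zero hc1 (by simpa using hl.symm)
  have hQd : Q.det ≠ 0 := by
    have := congrArg det hQ'
    rw [det_mul, det_smul, det_one, mul_one] at this
    exact right_ne_zero_of_mul (this ▸ pow_ne_zero _ hc1)
  have h1 : Y * Q = Q * ((d : F) • (g : Matrix (Fin 3) (Fin 3) F)) := by
    have h2 := cj_mul_self (isoGL _ hiso) (g : Matrix (Fin 3) (Fin 3) F)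
    rw [coe_isoGL, Matrix.mul_smul, Matrix.smul_mul] at h2
    have h3 := smul_right_injective _ hl0 h2
    rw [hY, Matrix.smul_mul, Matrix.mul_smul, H98.cj_apply, inv_inv, Matrix.mul_assoc,
      Matrix.mul_assoc]
    change (d : F) • (_ * (H98.cj (isoGL _ hiso) (g : Matrix (Fin 3) (Fin 3) F) * _)) = _
    rw [h3, Matrix.mul_assoc, ← Matrix.mul_assoc, Units.inv_mul, Matrix.one_mul]
  have h2 := congrArg (·.map σ) h1
  simp only [Matrix.map_mul, hYs, hQs] at h2
  have h3 := (Matrix.isUnit_iff_isUnit_det Q).2 (Ne.isUnit hQd) |>.mul_left_cancel (h2.symm.trans h1)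
  exact ⟨d, d.ne_zero, fun i j => congrFun (congrFun h3 i) j⟩

theorem IsRealProj.pow {g : GL (Fin 3) F} (hg : g ∈ specialLinear (Fin 3) F) {d : F}
    (hd : ∀ i j, σ (d * (g : Matrix (Fin 3) (Fin 3) F) i j) = d * (g : Matrix _ _ F) i j) :
    σ (d ^ 3) = d ^ 3 := by
  have h1 : (d • (g : Matrix (Fin 3) (Fin 3) F)).det = d ^ 3 := by
    rw [det_smul, mem_sl.1 hg]; simp
  rw [← h1, RingHom.map_det]
  congr 1
  ext i j
  exact hd i j

theorem mono_of_real_three (hq : q = 3) {g : GL (Fin 3) F} (hg : g ∈ SUG 3 F q)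
    (h : IsRealProj σ (g : Matrix (Fin 3) (Fin 3) F)) :
    ∃ π, BlockMono id π (g : Matrix (Fin 3) (Fin 3) F) := by
  obtain ⟨d, hd0, hd⟩ := h
  have h1 := IsRealProj.pow hg.2 hd
  have h8 := FiniteField.pow_card_sub_one_eq_one d hd0
  have h3 : (3 : F) = 0 := by
    have := FiniteField.cast_card_eq_zero F
    rw [hF.out, hq] at this
    exact pow_eq_zero_iff two_ne_zero |>.1 (by exact_mod_cast this)
  rw [hF.out, hq] at h8
  rw [cj_apply, hq] at h1
  have h2 : d * d = 1 := mul_right_cancel₀ (pow_ne_zero 9 hd0) (by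
    linear_combination (d ^ 3) * h8 - h1)
  have h4 : σ d = d := by rw [cj_apply, hq]; linear_combination d * h2
  have h5 : ∀ i j, (g : Matrix (Fin 3) (Fin 3) F) i j = 0 ∨
      (g : Matrix (Fin 3) (Fin 3) F) i j * σ ((g : Matrix (Fin 3) (Fin 3) F) i j) = 1 := by
    intro i j
    have h6 := hd i j
    rw [map_mul, h4, mul_right_inj' hd0] at h6
    rw [or_iff_not_imp_left, h6]
    intro h7
    rw [cj_apply, hq] at h6
    exact mul_right_cancel₀ h7 (by linear_combination h6)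
  refine mono_of_col fun l => ?_
  have h6 := col_norm hg.1 l l
  rw [if_pos rfl, Fin.sum_univ_three] at h6
  rcases h5 0 l with a | a <;> rcases h5 1 l with b | b <;> rcases h5 2 l with c | c <;>
    rw [a, b, c] at h6
  · simp at h6
  · exact ⟨2, fun k hk => by fin_cases k; exacts [a, b, absurd rfl hk]⟩
  · exact ⟨1, fun k hk => by fin_cases k; exacts [a, absurd rfl hk, c]⟩
  · exact absurd (by linear_combination h6) (one_ne_zero (α := F))
  · exact ⟨0, fun k hk => by fin_cases k; exacts [absurd rfl hk, b, c]⟩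
  · exact absurd (by linear_combination h6) (one_ne_zero (α := F))
  · exact absurd (by linear_combination h6) (one_ne_zero (α := F))
  · exact absurd (by linear_combination h3 - h6) (one_ne_zero (α := F))

theorem real_three_three (hq : q = 3) {H : Subgroup (GL (Fin 3) F)}
    (hH : IsMaximalIn (SUG 3 F q) H) {F₀ : Subfield F} (hc : Fintype.card F = Nat.card F₀ ^ 2)
    {P : GL (Fin 3) F} (hP : IsFormRationalStructure (hermForm 3 F q) F₀ 1 P)
    (h : H ≤ subfieldSubgroup F₀ P) :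
    ∃ D : Fin 3 → Submodule F (Fin 3 → F), IsNondegenerateMDecomposition (hermForm 3 F q) 1 D ∧
      H = decompositionStabilizer D ⊓ SUG 3 F q := by
  obtain ⟨P', h1, h2⟩ := real_frame (by subst hq; decide) hc hP
  have hD := nondegDec_frame h1 (by norm_num) (Equiv.refl _)
  refine ⟨_, hD, eq_inf_of_maximal hH (fun g hg => ?_) (not_SUG_le_decStab le_rfl hD)⟩
  obtain ⟨G, rfl⟩ := (frmG (Equiv.refl _) P').surjective g
  obtain ⟨π, hπ⟩ := mono_of_real_three hq (h1.mem_SUG.1 (hH.1.le hg)) (h2 G (h hg))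
  exact mono_mem_frame (by norm_num) _ P' _ hπ

/-- the Hermitian norm in degree three -/
def nm3 (v : Fin 3 → F25) : F25 := ∑ k, v k * c25 (v k)

/-- the second power sum of the norms of the coordinates -/
def pp3 (v : Fin 3 → F25) : F25 := ∑ k, (v k * c25 (v k)) ^ 2

/-- the 105 points of `A₇`, described by monomial invariants -/
def xFr (v : Fin 3 → F25) : Prop :=
  nm3 v ≠ 0 ∧ (((∏ k, v k) ^ 2 = 0 ∧ (pp3 v = nm3 v ^ 2 ∨ pp3 v = 3 * nm3 v ^ 2)) ∨
    ((∏ k, v k) ^ 2 = 2 * nm3 v ∧ (pp3 v = nm3 v ^ 2 ∨ pp3 v = 2 * nm3 v ^ 2)) ∨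
    ((∏ k, v k) ^ 2 = 4 * nm3 v ∧ pp3 v = 3 * nm3 v ^ 2))

/-- the 105 points of `A₇`, described by orthogonal invariants -/
def xRe (v : Fin 3 → F25) : Prop :=
  nm3 v ≠ 0 ∧ ((∀ i j, v i * c25 (v j) = v j * c25 (v i)) ∨ v ⬝ᵥ v = 0 ∨ (v ⬝ᵥ v) ^ 3 = 2 * nm3 v)

instance decXFr (v : Fin 3 → F25) : Decidable (xFr v) := by unfold xFr; infer_instance

instance decXRe (v : Fin 3 → F25) : Decidable (xRe v) := by unfold xRe; infer_instance

theorem xFr_iff_aux : (xFr 0 ↔ xRe 0) ∧ (xFr ![0, 0, 1] ↔ xRe ![0, 0, 1]) ∧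
    (∀ z, xFr ![0, 1, z] ↔ xRe ![0, 1, z]) ∧ ∀ y z, xFr ![1, y, z] ↔ xRe ![1, y, z] := by
  decide +kernel

theorem xFr_congr {v w : Fin 3 → F25} {N : F25} (hN : N ≠ 0) (h1 : nm3 w = N * nm3 v)
    (h2 : pp3 w = N ^ 2 * pp3 v) (h3 : (∏ k, w k) ^ 2 = N * (∏ k, v k) ^ 2) : xFr w ↔ xFr v := by
  have hN2 := pow_ne_zero 2 hN
  simp only [xFr, h1, h2, h3, mul_pow, mul_left_comm _ N, mul_left_comm _ (N ^ 2), ne_eq,
    mul_eq_zero, hN, false_or, mul_right_inj' hN, mul_right_inj' hN2]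

theorem xRe_congr {v w : Fin 3 → F25} {N M : F25} (hN : N ≠ 0) (hM : M ^ 3 = N)
    (h1 : nm3 w = N * nm3 v) (h2 : w ⬝ᵥ w = M * (v ⬝ᵥ v))
    (h3 : (∀ i j, v i * c25 (v j) = v j * c25 (v i)) → ∀ i j, w i * c25 (w j) = w j * c25 (w i))
    (h : xRe v) : xRe w := by
  refine ⟨by rw [h1]; exact mul_ne_zero hN h.1, ?_⟩
  rcases h.2 with h | h | h
  · exact Or.inl (h3 h)
  · exact Or.inr (Or.inl (by rw [h2, h, mul_zero]))
  · exact Or.inr (Or.inr (by rw [h2, mul_pow, h, hM, h1]; ring))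

theorem nm3_smul (c : F25) (v : Fin 3 → F25) : nm3 (c • v) = c ^ 6 * nm3 v := by
  simp only [nm3, ← cj25, cj_apply, Fin.sum_univ_three, Pi.smul_apply, smul_eq_mul]; ring

theorem xRe_smul {c : F25} (hc : c ≠ 0) {v : Fin 3 → F25} (h : xRe v) : xRe (c • v) :=
  xRe_congr (pow_ne_zero 6 hc) (M := c ^ 2) (by ring) (nm3_smul c v)
    (by rw [smul_dotProduct, dotProduct_smul, smul_smul, sq, smul_eq_mul])
    (fun h i j => by
      have := h i j
      simp only [← cj25, map_mul, Pi.smul_apply, smul_eq_mul] at this ⊢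
      linear_combination c * cj F25 5 c * this) h

theorem xFr_iff (v : Fin 3 → F25) : xFr v ↔ xRe v := by
  obtain ⟨h0, h1, h2, h3⟩ := xFr_iff_aux
  refine forall_vec_three (p := fun v => xFr v ↔ xRe v) (fun c v hc h => ?_) h0 h1 h2 h3 v
  rw [xFr_congr (pow_ne_zero 6 hc) (nm3_smul c v), h]
  · exact ⟨xRe_smul hc, fun h => by simpa [hc] using xRe_smul (inv_ne_zero hc) h⟩
  · simp only [pp3, ← cj25, cj_apply, Fin.sum_univ_three, Pi.smul_apply, smul_eq_mul]; ring
  · simp only [Fin.prod_univ_three, Pi.smul_apply, smul_eq_mul]; ring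

theorem mono_mem_xFr {g : GL (Fin 3) F25} (hg : g ∈ SUG 3 F25 5) {π : Equiv.Perm (Fin 3)}
    (hπ : BlockMono id π (g : Matrix (Fin 3) (Fin 3) F25)) : g ∈ setStab {v | xFr v} := by
  have hn := mono_norm (q := 5) hg.1 hπ
  have h1 : ∀ v l, ((g : Matrix (Fin 3) (Fin 3) F25) *ᵥ v) (π l) *
      c25 (((g : Matrix (Fin 3) (Fin 3) F25) *ᵥ v) (π l)) = v l * c25 (v l) := fun v l => by
    rw [hπ.mono_mulVec, ← cj25, ← cj25, map_mul]
    linear_combination (v l * cj F25 5 (v l)) * hn l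
  intro v
  refine (xFr_congr one_ne_zero ?_ ?_ ?_).symm
  · rw [one_mul, nm3, ← Equiv.sum_comp π]; exact Finset.sum_congr rfl fun l _ => h1 v l
  · rw [one_pow, one_mul, pp3, ← Equiv.sum_comp π]
    exact Finset.sum_congr rfl fun l _ => congrArg (· ^ 2) (h1 v l)
  · rw [one_mul]; exact mono_prod_sq hg.2 hπ v

theorem real_mem_xFr {g : GL (Fin 3) F25} (hg : g ∈ SUG 3 F25 5)
    (h : IsRealProj (cj F25 5) (g : Matrix (Fin 3) (Fin 3) F25)) : g ∈ setStab {v | xFr v} := by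
  obtain ⟨d, hd0, hd⟩ := h
  have h1 := IsRealProj.pow hg.2 hd
  rw [cj_apply] at h1
  refine mem_setStab_of_finite fun v hv => (xFr_iff _).2 ?_
  set A := d • (g : Matrix (Fin 3) (Fin 3) F25) with hA
  have hAs : A.map (cj F25 5) = A := by ext1 i j; exact hd i j
  have hAA : Aᵀ * A = d ^ 6 • 1 := by
    nth_rewrite 2 [← hAs]
    rw [hA, Matrix.map_smul' _ _ _ (map_mul _), transpose_smul, smul_mul_smul_comm,
      (isIsom_iff _).1 (mem_SUG.1 hg).1, cj_apply, ← pow_succ']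
  have h2 : xRe (A *ᵥ v) := by
    refine xRe_congr (pow_ne_zero 6 hd0) (M := d ^ 6) (by linear_combination d ^ 3 * h1) ?_ ?_
      (fun h i j => ?_) ((xFr_iff _).1 hv)
    · rw [hA, smul_mulVec, nm3_smul]
      congr 1
      simpa only [herm_eq_sum, cj25, nm3] using (mem_SUG.1 hg).1 v v
    · rw [dotProduct_mulVec, vecMul_mulVec, hAA, ← dotProduct_mulVec, smul_mulVec, one_mulVec,
        dotProduct_smul, smul_eq_mul]
    · have h3 : ∀ i j, cj F25 5 (A i j) = A i j := hd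
      simp only [← cj25] at h
      simp only [← cj25, Matrix.mulVec, dotProduct, Fin.sum_univ_three, map_add, map_mul, h3]
      linear_combination (A i 0 * A j 1 - A i 1 * A j 0) * h 0 1 +
        (A i 0 * A j 2 - A i 2 * A j 0) * h 0 2 + (A i 1 * A j 2 - A i 2 * A j 1) * h 1 2
  simpa [hA, smul_mulVec, hd0] using xRe_smul (inv_ne_zero hd0) h2

theorem not_SUG_le_xFr : ¬ SUG 3 F25 5 ≤ setStab {v | xFr v} := by
  refine not_le_setStab (u := ![1, 0, 0]) (v := ![1, 1, e25 9]) (w := ![0, 1, 0])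
    (by decide +kernel) (by decide +kernel) ?_ ?_ ?_ ?_ <;>
  · simp only [herm_eq_sum, cj25]
    decide +kernel

theorem su3_aux : IsSU3 c25 !![3, 4, 4; 4, 3, 4; 4, 4, 3] ∧
    IsSU3 c25 !![1, 0, 0; 0, e25 12, 0; 0, 0, e25 17] := by
  decide +kernel

theorem su3_aux' : ∀ k l : Fin 3, k ≠ l →
    (!![1, 0, 0; 0, e25 12, 0; 0, 0, e25 17] : Matrix (Fin 3) (Fin 3) F25) k l = (0 : F25) := by
  intro k l; fin_cases k <;> fin_cases l <;> simp

theorem frame_three_five (hq : q = 5) {H : Subgroup (GL (Fin 3) F)}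
    (hH : IsMaximalIn (SUG 3 F q) H) {D : Fin 3 → Submodule F (Fin 3 → F)}
    (hD : IsNondegenerateMDecomposition (hermForm 3 F q) 1 D)
    (h : H ≤ decompositionStabilizer D) : False := by
  subst hq
  obtain ⟨H', h1, h2⟩ := frame_transport F25 hH hD h
  have a := su3_aux.1
  simp only [IsSU3, ← cj25', ← det_eq_det3] at a
  refine not_maximal_of' h1 (fun g hg => (h2 g hg).elim fun π => mono_mem_xFr (h1.1.le hg))
    not_SUG_le_xFr (isoGL_mem _ a.1 a.2) (real_mem_xFr (isoGL_mem _ a.1 a.2)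
      ⟨1, one_ne_zero, by simp only [cj25, coe_isoGL]; decide +kernel⟩) fun hg => ?_
  obtain ⟨π, hπ⟩ := h2 _ hg
  rw [coe_isoGL] at hπ
  by_cases h : 0 = π 0
  · exact absurd (hπ 1 0 (by rw [id, id, ← h]; decide)) (by decide +kernel)
  · exact absurd (hπ 0 0 h) (by decide +kernel)

theorem real_three_five (hq : q = 5) {H : Subgroup (GL (Fin 3) F)}
    (hH : IsMaximalIn (SUG 3 F q) H) {F₀ : Subfield F} (hc : Fintype.card F = Nat.card F₀ ^ 2)
    {P : GL (Fin 3) F} (hP : IsFormRationalStructure (hermForm 3 F q) F₀ 1 P)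
    (h : H ≤ subfieldSubgroup F₀ P) : False := by
  subst hq
  obtain ⟨P', h1, h2⟩ := real_frame (by decide) hc hP
  obtain ⟨φ, hφ⟩ := exists_transport F25 (n := 3) (h1.maximal hH)
  have h3 : ∀ g ∈ (H.comap (frmG (Equiv.refl _) P').toMonoidHom).comap
      (glMap (Fin 3) φ).toMonoidHom, IsRealProj (cj F25 5) (g : Matrix (Fin 3) (Fin 3) F25) := by
    intro g hg
    obtain ⟨d, hd0, hd⟩ := h2 _ (h hg)
    refine ⟨φ.symm d, by simpa using hd0, fun i j => φ.injective ?_⟩
    rw [map_cj, map_mul, RingEquiv.apply_symm_apply]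
    exact hd i j
  have a := su3_aux.2
  simp only [IsSU3, ← cj25', ← det_eq_det3] at a
  refine not_maximal_of' hφ (fun g hg => real_mem_xFr (hφ.1.le hg) (h3 g hg))
    not_SUG_le_xFr (isoGL_mem _ a.1 a.2) (mono_mem_xFr (isoGL_mem _ a.1 a.2) (π := 1) ?_)
    fun hg => ?_
  · exact su3_aux'
  · have := h3 _ hg
    simp only [IsRealProj, coe_isoGL, cj25] at this
    revert this
    decide +kernel

end Cfsg.Agent.H10
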