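import Cfsg.Agent.H10.UThreeC

/-! The normaliser `3^(1+2) : Q₈` of a Sylow 3-subgroup of `SU₃(5)` lies in `3 · M₁₀`. -/

set_option autoImplicit false
set_option linter.unusedSectionVars false
set_option linter.style.haveILetI false
set_option linter.style.longLine false

namespace Cfsg.Agent.H10

open Cfsg Cfsg.Geo Cfsg.Agent.H98 Cfsg.Agent.H99 Matrix

variable {F : Type*} [Field F] [Fintype F] {q : ℕ} [hF : Fact (Fintype.card F = q ^ 2)] {n : ℕ}

/-- the extraspecial group of order 27 -/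
def r27 : Subgroup (GL (Fin 3) F25) where
  carrier := {g | ∃ i, (g : Matrix (Fin 3) (Fin 3) F25) = rm27 i}
  mul_mem' := by
    rintro a b ⟨i, hi⟩ ⟨j, hj⟩
    exact ⟨_, by rw [Units.val_mul, hi, hj, rm27_mul]⟩
  one_mem' := ⟨0, rm27_aux.1.symm⟩
  inv_mem' := by
    rintro a ⟨i, hi⟩
    refine ⟨Fin.ofNat 27 (hmN i i), Units.inv_eq_of_mul_eq_one_right ?_⟩
    rw [hi, rm27_mul, rm27_aux.2.2.1, rm27_aux.1]

theorem rm27_isom (i : Fin 27) : (rm27 i)ᵀ * (rm27 i).map (cj F25 5) = 1 := by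
  rw [cj25']; exact (rm27_aux.2.1 i).1

theorem r27_le : r27 ≤ SUG 3 F25 5 := by
  rintro g ⟨i, hi⟩
  rw [mem_SUG, hi, isIsom_iff, det_eq_det3]
  exact ⟨rm27_isom i, (rm27_aux.2.1 i).2⟩

theorem card_r27 : Nat.card r27 = 27 := by
  rw [← Nat.card_congr (Equiv.ofBijective (fun i : Fin 27 => (⟨isoGL _ (rm27_isom i), i, rfl⟩ : r27))
    ⟨fun i j h => rm27_inj i j (congrArg (fun x : r27 => x.1.1) h),
      fun ⟨g, i, hi⟩ => ⟨i, Subtype.ext (Units.ext hi.symm)⟩⟩)]
  simp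

theorem norm_r27_le : Subgroup.normalizer (r27 : Set (GL (Fin 3) F25)) ⊓ SUG 3 F25 5 ≤
    setStab (coneOf x45) := by
  rintro g ⟨hg, hS⟩
  obtain ⟨a0, -, -, a2, a3, a4⟩ := rm27_aux
  have key : ∀ i, ∃ j, ∀ v, rm27 j *ᵥ ((g : Matrix (Fin 3) (Fin 3) F25) *ᵥ v) =
      (g : Matrix (Fin 3) (Fin 3) F25) *ᵥ (rm27 i *ᵥ v) := by
    intro i
    obtain ⟨j, hj⟩ := (hg (isoGL _ (rm27_isom i))).1 ⟨i, rfl⟩
    refine ⟨j, fun v => ?_⟩
    rw [← hj, Units.val_mul, Units.val_mul, coe_isoGL, mulVec_mulVec, mulVec_mulVec,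
      Matrix.mul_assoc, Units.inv_mul, Matrix.mul_one]
  obtain ⟨i, hi⟩ := key 3
  obtain ⟨j, hj⟩ := key 1
  have hi0 : i ≠ 0 := by
    rintro rfl
    have h1 : rm27 0 = rm27 3 := matrix_ext_mulVec fun v => gl_mulVec_injective g (by
      have := hi v
      rw [a0, one_mulVec] at this
      rw [a0, one_mulVec]
      exact this)
    exact absurd (rm27_inj _ _ h1) (by decide)
  have hn := (mem_SUG.1 hS).1 (Pi.single 0 1) (Pi.single 0 1)
  rw [herm_single_single, if_pos rfl] at hn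
  rcases rm27_fix hi0 ((g : Matrix (Fin 3) (Fin 3) F25) *ᵥ Pi.single 0 1) (by rw [hi, a2]) with
    h1 | ⟨l, hl, c, hc, h1⟩
  · rw [h1, herm_zero_left] at hn
    exact absurd hn zero_ne_one
  have h2 : (g : Matrix (Fin 3) (Fin 3) F25) = c • Matrix.of fun r s => ![v325 (wN l),
      v325 (mvN (rmN j) (wN l)), v325 (mvN (rmN j) (mvN (rmN j) (wN l)))] s r := by
    have e1 : (g : Matrix (Fin 3) (Fin 3) F25) *ᵥ Pi.single 1 1 =
        c • v325 (mvN (rmN j) (wN l)) := by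
      rw [← a3, ← hj, h1, mulVec_smul, v325_mvN, rm27]
    have e2 : (g : Matrix (Fin 3) (Fin 3) F25) *ᵥ Pi.single 2 1 =
        c • v325 (mvN (rmN j) (mvN (rmN j) (wN l))) := by
      rw [← a4, ← hj, e1, mulVec_smul, v325_mvN (rmN j) (mvN _ _), rm27]
    rw [mulVec_single_one] at h1 e1 e2
    ext1 r s
    fin_cases s
    exacts [congrFun h1 r, congrFun e1 r, congrFun e2 r]
  have h3 : c ^ 6 * nm3 (v325 (wN l)) = 1 := by
    rw [← nm3_smul, ← h1]
    simpa only [herm_eq_sum, cj25, nm3] using hn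
  have h4 := (mem_SUG.1 hS).2
  rw [h2, det_smul, det_eq_det3, Fintype.card_fin, ← e25_detN] at h4
  obtain ⟨k, hk, k0, k1, k2⟩ := gN_eq l hl j j.2 (by
    generalize detN (wN l) (mvN (rmN j) (wN l)) (mvN (rmN j) (mvN (rmN j) (wN l))) = D at h4 ⊢
    have h5 : e25 (mN D D) = e25 (if l < 3 then 1 else 3) := by
      rw [e25_mN, ← wN_norm l hl]
      refine mul_left_cancel₀ (pow_ne_zero 6 hc) ?_
      rw [h3, show c ^ 6 = c ^ 3 * c ^ 3 by ring, mul_mul_mul_comm, h4, one_mul]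
    have h6 : (if l < 3 then 1 else 3) < 25 := by split_ifs <;> norm_num
    rwa [e25_eq_iff, Nat.mod_eq_of_lt (mN_lt D D), Nat.mod_eq_of_lt h6] at h5)
  have h5 : (g : Matrix (Fin 3) (Fin 3) F25) = c • m325 (gN k) := by
    have e : v325 1 = Pi.single 0 1 ∧ v325 25 = Pi.single 1 1 ∧ v325 625 = Pi.single 2 1 := by
      decide +kernel
    rw [h2, ← k2, ← k1, ← k0, v325_mvN, v325_mvN, v325_mvN, e.1, e.2.1, e.2.2]
    congr 1
    ext1 r s
    fin_cases s <;> simp
  refine mem_setStab_cone x45 (fun i => Fin.ofNat 45 (c72 k / 2048 ^ (i : ℕ) % 64))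
    (fun i => c * e25 (c72 k / 2048 ^ (i : ℕ) % 2048 / 64)) fun i =>
      ⟨mul_ne_zero hc ((gN_cert k hk).cone i).1, ?_⟩
  rw [h5, smul_mulVec, x45, ((gN_cert k hk).cone i).2, smul_smul]
  rfl

theorem extra_three_five_model {H T : Subgroup (GL (Fin 3) F25)}
    (hH : IsMaximalIn (SUG 3 F25 5) H) (hT : T ≤ SUG 3 F25 5) (hTc : Nat.card T = 27)
    (hHT : H ≤ Subgroup.normalizer (T : Set (GL (Fin 3) F25))) : False := by
  obtain ⟨a, b, c⟩ := s45_aux
  simp only [IsSU3, ← cj25', ← det_eq_det3] at a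
  refine not_maximal_of_sylow (p := 3) (T₀ := r27) (M₀ := setStab (coneOf x45)) hH hT ?_ r27_le
    (card_r27.trans hTc.symm) hHT (fun H' _ h => h.le.trans norm_r27_le)
    (not_le_setStab (u := x45 0) (v := v325 625) (w := v325 2526)
      (mem_coneOf _ 0) (not_mem_coneOf fun i c h => ?_) ?_ ?_ ?_ ?_)
    (isoGL_mem _ a.1 a.2) (ConeCert.mem c.cone) fun h => ?_
  · rw [card_SUG_three_five, hTc, show 378000 = 3 ^ 3 * 14000 from rfl,
      Nat.factorization_mul (by norm_num) (by norm_num), Finsupp.add_apply,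
      Nat.Prime.factorization_pow Nat.prime_three, Finsupp.single_eq_same,
      Nat.factorization_eq_zero_of_not_dvd (by norm_num)]
    rfl
  · obtain ⟨c, hc, rfl⟩ := e25_surj c
    rw [x45, ← v325_svN, v325_eq_iff] at h
    exact x45_aux i i.2 c hc h.symm
  iterate 4
    simp only [herm_eq_sum, cj25]
    decide +kernel
  · obtain ⟨i, hi⟩ := (h (isoGL _ (rm27_isom 3))).1 ⟨3, rfl⟩
    refine b i ?_
    have := congrArg (· * ((isoGL _ a.1 : GL (Fin 3) F25) : Matrix (Fin 3) (Fin 3) F25)) hi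
    simp only [Units.val_mul, Matrix.mul_assoc, Units.inv_mul, Matrix.mul_one] at this
    exact this

omit [Fintype F] hF in
theorem det_eq_one_of_trace (h2 : (2 : F) ≠ 0) {A : Matrix (Fin 3) (Fin 3) F} (h3 : A ^ 3 = 1)
    (t1 : A.trace = 0) (t2 : (A * A).trace = 0) : A.det = 1 := by
  have h := congrFun (congrFun h3 0) 0
  rw [pow_three] at h
  simp only [Matrix.mul_apply, Fin.sum_univ_three, one_apply_eq, Matrix.trace, Matrix.diag] at *
  rw [Matrix.det_fin_three]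
  apply mul_left_cancel₀ h2
  linear_combination 2 * h - (2 * (A 0 0 * A 0 0 + A 0 1 * A 1 0 + A 0 2 * A 2 0) -
    A 0 0 * (A 0 0 + A 1 1 + A 2 2)) * t1 - A 0 0 * t2

theorem extra_le_sl (h2 : (2 : F) ≠ 0) {R : Subgroup (GL (Fin 3) F)}
    (hR : IsSymplecticTypeGroup 3 R) (hi : ActsAbsolutelyIrreducibly (matrixSet R))
    (hz : Nat.card (Subgroup.center R) = 3) : R ≤ specialLinear (Fin 3) F := by
  intro g hg
  have hp : ∀ x ∈ R, x ^ 3 = 1 := fun x hx => by
    have := Monoid.pow_exponent_eq_one (⟨x, hx⟩ : R)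
    rw [hR.exponent_eq] at this
    exact congrArg Subtype.val this
  have h3 : (g : Matrix (Fin 3) (Fin 3) F) ^ 3 = 1 := by
    rw [← Units.val_pow_eq_pow_val, hp g hg, Units.val_one]
  rw [mem_sl]
  by_cases hc : ∀ x ∈ R, x * g * x⁻¹ * g⁻¹ = 1
  · obtain ⟨c, hc⟩ := hi.2 (g : Matrix (Fin 3) (Fin 3) F) (by
      rintro _ ⟨x, hx, rfl⟩
      have h1 : g * x = x * g := by
        rw [← one_mul (g * x), ← hc x hx]; group
      exact congrArg Units.val h1)
    rw [hc] at h3 ⊢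
    rw [smul_pow, one_pow] at h3
    simpa using congrFun (congrFun h3 0) 0
  · push Not at hc
    obtain ⟨x, hx, hc⟩ := hc
    obtain ⟨z, hz⟩ := mem_scalars_iff'.1
      ((card_sq_mul_card_center hR hi (by rw [hz]; rfl)).2 x hx g hg)
    have h4 : z ^ 3 = 1 := scal_injective (ι := Fin 3) (by
      rw [scal_pow, scal_one, ← hz]
      exact hp _ (R.mul_mem (R.mul_mem (R.mul_mem hx hg) (R.inv_mem hx)) (R.inv_mem hg)))
    have h5 : (z : F) ≠ 1 := fun h => hc (by rw [hz, show z = 1 from Units.ext h, scal_one])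
    have h6 : H98.cj x (g : Matrix (Fin 3) (Fin 3) F) = (z : F) • (g : Matrix (Fin 3) (Fin 3) F) := by
      rw [cj_coe, eq_mul_of_mul_inv_eq hz, Units.val_mul, coe_scal, smul_mul_assoc, one_mul]
    have h7 : (z : F) * z ≠ 1 := fun h => h5 (by
      have : (z : F) ^ 3 = 1 := by rw [← Units.val_pow_eq_pow_val, h4, Units.val_one]
      linear_combination this - z * h)
    refine det_eq_one_of_trace h2 h3 ?_ ?_
    · have := trace_cj x (g : Matrix (Fin 3) (Fin 3) F)
      rw [h6, trace_smul, smul_eq_mul] at this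
      exact (mul_eq_zero.1 (by linear_combination this)).resolve_left (sub_ne_zero.2 h5)
    · have := trace_cj x ((g : Matrix (Fin 3) (Fin 3) F) * g)
      rw [map_mul, h6, smul_mul_smul_comm, trace_smul, smul_eq_mul] at this
      exact (mul_eq_zero.1 (by linear_combination this)).resolve_left (sub_ne_zero.2 h7)

theorem extra_three_five (hq : q = 5) {H R : Subgroup (GL (Fin 3) F)}
    (hH : IsMaximalIn (SUG 3 F q) H) (hR : IsSymplecticTypeGroup 3 R)
    (hi : ActsAbsolutelyIrreducibly (matrixSet R)) (hs : R ≤ similarityGroup (hermForm 3 F q))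
    (hz : Nat.card (Subgroup.center R) = 3) (hc : Nat.card R = 27)
    (h : H ≤ subgroupNormalizer R) : False := by
  subst hq
  obtain ⟨H', T', a1, a2, a3, -, a5⟩ := sylow_transport F25 hH
    (le_inf (le_GU_of_sim (by norm_num) hR.pGroup hs (by norm_num))
      (extra_le_sl (two_ne_zero_of_odd' (q := 5) (by decide)) hR hi hz)) h
  exact extra_three_five_model a1 a2 (a5.trans hc) a3

end Cfsg.Agent.H10
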